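import Cfsg.Agent.Lib.Helper41.OFStmt
import Cfsg.Agent.Lib.Helper50.OFOBR
import Cfsg.Agent.Lib.Helper50.OFDETS0
import Cfsg.Agent.Lib.Helper97.OrtCONG
import Cfsg.Agent.Lib.Helper93.OrtOCONG
import Cfsg.Agent.Lib.Helper45.OrthCard

/-!
# S5977, piece CARDO

Order of the isometry group of an invertible symmetric matrix over a finite field of odd
characteristic.
-/

set_option autoImplicit false

namespace Cfsg.Agent.Lib.Helper75.OFCARDO

open Matrix
open Cfsg.Agent.Lib.Helper41.SpFStmt (Mat)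
open Cfsg.Agent.Lib.Helper41.OFStmt
open Cfsg.Agent.Lib.Helper37.OrtStmt (OGrp)

universe u

variable {F : Type u} [Field F]

/-- index type of `quadFormOdd m` -/
abbrev IO (m : ℕ) : Type := Unit ⊕ (Fin m ⊕ Fin m)

/-- Gram matrix of the polar form of `quadFormOdd m F`. -/
def SOdd (m : ℕ) (F : Type u) [Field F] : Matrix (IO m) (IO m) F :=
  Matrix.fromBlocks ((2 : F) • (1 : Matrix Unit Unit F)) 0 0 (S0 m F)

theorem dot_SOdd (m : ℕ) (u v : IO m → F) :
    u ⬝ᵥ (SOdd m F *ᵥ v) = 2 * (u (.inl ()) * v (.inl ())) +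
      ∑ i : Fin m, (u (.inr (.inl i)) * v (.inr (.inr i)) + u (.inr (.inr i)) * v (.inr (.inl i))) := by
  unfold SOdd S0
  rw [Matrix.fromBlocks_mulVec, Matrix.fromBlocks_mulVec]
  simp only [dotProduct, Fintype.sum_sum_type, Sum.elim_inl, Sum.elim_inr, Matrix.zero_mulVec,
    Matrix.one_mulVec, zero_add, add_zero, Function.comp_apply, Finset.sum_add_distrib,
    Matrix.smul_mulVec, Pi.smul_apply, smul_eq_mul,
    Finset.univ_unique, Finset.sum_singleton]
  have hd : (default : Unit) = () := rfl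
  rw [hd]
  ring

theorem quadOdd_add (m : ℕ) (u v : IO m → F) :
    Cfsg.quadFormOdd m F (u + v) =
      Cfsg.quadFormOdd m F u + Cfsg.quadFormOdd m F v + u ⬝ᵥ (SOdd m F *ᵥ v) := by
  rw [dot_SOdd]
  unfold Cfsg.quadFormOdd
  have e : ∑ i : Fin m, (u + v) (.inr (.inl i)) * (u + v) (.inr (.inr i)) =
      ∑ i : Fin m, u (.inr (.inl i)) * u (.inr (.inr i)) +
      ∑ i : Fin m, v (.inr (.inl i)) * v (.inr (.inr i)) +
      ∑ i : Fin m, (u (.inr (.inl i)) * v (.inr (.inr i)) +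
        u (.inr (.inr i)) * v (.inr (.inl i))) := by
    rw [← Finset.sum_add_distrib, ← Finset.sum_add_distrib]
    apply Finset.sum_congr rfl
    intro i _
    simp only [Pi.add_apply]
    ring
  rw [e]
  simp only [Pi.add_apply]
  ring

theorem dotOdd_self (m : ℕ) (u : IO m → F) :
    u ⬝ᵥ (SOdd m F *ᵥ u) = 2 * Cfsg.quadFormOdd m F u := by
  rw [dot_SOdd]
  unfold Cfsg.quadFormOdd
  rw [mul_add, Finset.mul_sum]
  congr 1
  · ring
  · apply Finset.sum_congr rfl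
    intro i _
    ring

theorem dotOdd_conj (m : ℕ) (g : Matrix (IO m) (IO m) F) (u v : IO m → F) :
    (g *ᵥ u) ⬝ᵥ (SOdd m F *ᵥ (g *ᵥ v)) = u ⬝ᵥ ((gᵀ * SOdd m F * g) *ᵥ v) := by
  rw [← Matrix.vecMul_transpose, ← Matrix.dotProduct_mulVec, Matrix.mulVec_mulVec,
    Matrix.mulVec_mulVec, Matrix.mul_assoc]

theorem memOdd_iff (m : ℕ) (g : GL (IO m) F) :
    g ∈ Cfsg.isometryGroup F (Cfsg.quadFormOdd m F) ↔
      ∀ u : IO m → F, Cfsg.quadFormOdd m F (g.val *ᵥ u) = Cfsg.quadFormOdd m F u := by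
  constructor
  · intro h u
    exact h u u
  · intro h u v
    exact h u

/-- the bridge for `quadFormOdd` -/
theorem odd_bridge (h2 : (2 : F) ≠ 0) (m : ℕ) (g : GL (IO m) F) :
    g ∈ Cfsg.isometryGroup F (Cfsg.quadFormOdd m F) ↔ g.valᵀ * SOdd m F * g.val = SOdd m F := by
  rw [memOdd_iff]
  constructor
  · intro h
    have hB : ∀ u v : IO m → F,
        u ⬝ᵥ ((g.valᵀ * SOdd m F * g.val) *ᵥ v) = u ⬝ᵥ (SOdd m F *ᵥ v) := by
      intro u v
      rw [← dotOdd_conj]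
      have h1 := quadOdd_add m (g.val *ᵥ u) (g.val *ᵥ v)
      rw [← Matrix.mulVec_add, h, h u, h v, quadOdd_add m u v] at h1
      exact (add_left_cancel h1).symm
    ext i j
    have := hB (Pi.single i 1) (Pi.single j 1)
    simpa using this
  · intro h u
    have h1 := dotOdd_self m (g.val *ᵥ u)
    rw [dotOdd_conj, h, dotOdd_self] at h1
    exact (mul_left_cancel₀ h2 h1).symm

theorem odd_group_eq (h2 : (2 : F) ≠ 0) (m : ℕ) :
    Cfsg.isometryGroup F (Cfsg.quadFormOdd m F) = OGrp (SOdd m F) := by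
  ext g
  rw [odd_bridge h2 m g]
  exact Iff.rfl

theorem plus_group_eq (h2 : (2 : F) ≠ 0) (d : ℕ) :
    Cfsg.isometryGroup F (Cfsg.quadFormPlus d F) = OGrp (S0 d F) := by
  ext g
  rw [Cfsg.Agent.Lib.Helper50.OFOBR.main h2 d g]
  exact Iff.rfl

theorem SOdd_transpose (m : ℕ) : (SOdd m F)ᵀ = SOdd m F := by
  unfold SOdd S0
  rw [Matrix.fromBlocks_transpose, Matrix.fromBlocks_transpose]
  simp

theorem S0_transpose (d : ℕ) : (S0 d F)ᵀ = S0 d F := by
  unfold S0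
  rw [Matrix.fromBlocks_transpose]
  simp

theorem SOdd_det (m : ℕ) : (SOdd m F).det = 2 * (-1) ^ m := by
  unfold SOdd
  rw [Matrix.det_fromBlocks_zero₂₁, Cfsg.Agent.Lib.Helper50.OFDETS0.main m]
  simp

theorem OGrp_smul {n : ℕ} (c : F) (hc : c ≠ 0) (G : Matrix (Fin n) (Fin n) F) :
    OGrp (c • G) = OGrp G := by
  ext g
  show (g : Matrix (Fin n) (Fin n) F)ᵀ * (c • G) * (g : Matrix (Fin n) (Fin n) F) = c • G ↔
    (g : Matrix (Fin n) (Fin n) F)ᵀ * G * (g : Matrix (Fin n) (Fin n) F) = G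
  rw [Matrix.mul_smul, Matrix.smul_mul]
  constructor
  · intro h
    have := congrArg (fun M => c⁻¹ • M) h
    simpa [smul_smul, inv_mul_cancel₀ hc] using this
  · intro h
    rw [h]

theorem card_odd_case {L : Type u} [Field L] [Fintype L] (h2 : (2 : L) ≠ 0) (m : ℕ)
    (G : Matrix (Fin (2 * m + 1)) (Fin (2 * m + 1)) L) (hG : Gᵀ = G) (hdet : G.det ≠ 0) :
    Nat.card ↥(OGrp G) = 2 * Fintype.card L ^ (m ^ 2) *
        ∏ j ∈ Finset.range m, (Fintype.card L ^ (2 * (j + 1)) - 1) := by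
  have hodd : Odd (Fintype.card L) := by
    rw [Nat.odd_iff]
    apply FiniteField.odd_card_of_char_ne_two
    intro h
    apply h2
    have h1 := ringChar.Nat.cast_ringChar (R := L)
    rw [h] at h1
    exact_mod_cast h1
  set c : L := 2 * (-1) ^ m * (G.det)⁻¹ with hc
  have hc0 : c ≠ 0 := by
    rw [hc]
    exact mul_ne_zero (mul_ne_zero h2 (pow_ne_zero _ (neg_ne_zero.mpr one_ne_zero)))
      (inv_ne_zero hdet)
  have hcard : Fintype.card (IO m) = 2 * m + 1 := by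
    simp [IO]
    omega
  have hS : (c • G)ᵀ = c • G := by rw [Matrix.transpose_smul, hG]
  have hSdet : (c • G).det = c ^ (2 * m + 1) * G.det := by
    rw [Matrix.det_smul, Fintype.card_fin]
  have hSdet0 : (c • G).det ≠ 0 := by
    rw [hSdet]
    exact mul_ne_zero (pow_ne_zero _ hc0) hdet
  have hμ : ((c ^ m)⁻¹ : L) ≠ 0 := inv_ne_zero (pow_ne_zero _ hc0)
  have hdd : (SOdd m L).det = (c • G).det * ((c ^ m)⁻¹) ^ 2 := by
    rw [SOdd_det, hSdet]
    have hcm : c ^ m ≠ 0 := pow_ne_zero _ hc0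
    have e1 : c * G.det = 2 * (-1) ^ m := by
      rw [hc, mul_assoc, inv_mul_cancel₀ hdet, mul_one]
    field_simp
    rw [← e1]
    ring
  have h1 := Cfsg.Agent.Lib.Helper93.OrtOCONG.main Cfsg.Agent.Lib.Helper97.OrtCONG.main L h2
    (IO m) (2 * m + 1) hcard (c • G) (SOdd m L) hS hSdet0 (SOdd_transpose m) _ hμ hdd
  rw [OGrp_smul c hc0 G] at h1
  rw [← h1, ← odd_group_eq h2 m]
  exact Cfsg.Agent.Lib.Helper45.OrthCard.card_odd rfl hodd m

theorem card_even_case {L : Type u} [Field L] [Fintype L] (h2 : (2 : L) ≠ 0) (k : ℕ)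
    (G : Matrix (Fin (2 * (k + 1))) (Fin (2 * (k + 1))) L) (hG : Gᵀ = G) (hdet : G.det ≠ 0)
    (μ : L) (hμ : G.det = (-1) ^ (k + 1) * μ ^ 2) :
    Nat.card ↥(OGrp G) = 2 * Fintype.card L ^ ((k + 1) * k) * (Fintype.card L ^ (k + 1) - 1) *
        ∏ j ∈ Finset.range k, (Fintype.card L ^ (2 * (j + 1)) - 1) := by
  have hμ0 : μ ≠ 0 := by
    rintro rfl
    apply hdet
    rw [hμ]
    simp
  have hcard : Fintype.card (Fin (k + 1) ⊕ Fin (k + 1)) = 2 * (k + 1) := by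
    simp
    omega
  have hdd : (S0 (k + 1) L).det = G.det * (μ⁻¹) ^ 2 := by
    rw [Cfsg.Agent.Lib.Helper50.OFDETS0.main (k + 1), hμ]
    field_simp
  have h1 := Cfsg.Agent.Lib.Helper93.OrtOCONG.main Cfsg.Agent.Lib.Helper97.OrtCONG.main L h2
    (Fin (k + 1) ⊕ Fin (k + 1)) (2 * (k + 1)) hcard G (S0 (k + 1) L) hG hdet
    (S0_transpose (k + 1)) _ (inv_ne_zero hμ0) hdd
  rw [← h1, ← plus_group_eq h2 (k + 1)]
  exact Cfsg.Agent.Lib.Helper45.OrthCard.card_plus rfl k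

theorem main : CardO.{u} := by
  intro L _ _ h2 m' hm' G hG hdet
  constructor
  · intro hodd
    obtain ⟨m, rfl⟩ := hodd
    have e1 : (2 * m + 1 - 1) / 2 = m := by omega
    rw [e1]
    exact card_odd_case h2 m G hG hdet
  · intro heven hμ
    obtain ⟨μ, hμ⟩ := hμ
    obtain ⟨d', hd'⟩ := heven
    obtain ⟨k, rfl⟩ : ∃ k, d' = k + 1 := ⟨d' - 1, by omega⟩
    have e0 : m' = 2 * (k + 1) := by omega
    subst e0
    have e1 : 2 * (k + 1) / 2 = k + 1 := by omega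
    rw [e1] at hμ ⊢
    have e2 : k + 1 - 1 = k := by omega
    rw [e2]
    exact card_even_case h2 k G hG hdet μ hμ

end Cfsg.Agent.Lib.Helper75.OFCARDO
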