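import Mathlib
import Cfsg.Prelude.Def_Blocks

/-!
# Statements of the pieces for S4719 (Brauer: groups of deficiency class `r`, `p = 2`)

S4719: if `G` has no non-principal 2-block of defect `≥ r`, its Sylow 2-subgroups have order
`2 ^ a` and contain an elementary abelian subgroup of order `2 ^ (r + 1)`, then `|G|` is bounded
in terms of `a`.

Proof.  Induction on `r`.  `r = 0`: `G` has one 2-block (S4718).  `r + 1`: for an involution
`x` of `E`, `C_G(x)` has deficiency class `r + 1` (S4717), so `C_G(x) / ⟨x⟩` has deficiency class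
`r` (piece `DQ`) and contains `E / ⟨x⟩`; by induction `|C_G(x)|` is bounded (piece `CB`).  Then a
purely group theoretic theorem finishes (**Theorem A**): if `G ⊴ Γ`, `v, w ∈ Γ` generate a four
group all of whose involutions have at most `c` fixed points in `G`, and `|G|_2 ≤ 2 ^ a`, then
`|G| ≤ N(a, c)`.  Theorem A is proved by induction on `a` (pieces `ODD`, `RG`, `RO`, `TWO`,
`FIX`, `CZ`, `BF`, `NC`, `YN`, with the small tools `QC`, `PGZ`, `PGQ`, `PG`).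

Only definitions and `Prop`-valued statements here; each piece `X` is proved in its own file as
`theorem main : Cfsg.Agent.Lib.Helper75.DCStmt.X` (possibly with other pieces as hypotheses).
-/

set_option autoImplicit false

namespace Cfsg.Agent.Lib.Helper75.DCStmt

open Cfsg

universe u

/-! ### Theorem A: the setting -/

/-- `G ⊴ Γ`, `v ≠ w` commuting involutions of `Γ`, and each of `v`, `w`, `v * w` commutes with
at most `c` elements of `G`. -/
structure Setting {Γ : Type u} [Group Γ] (G : Subgroup Γ) (v w : Γ) (c : ℕ) : Prop where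
  normal : G.Normal
  v_ne : v ≠ 1
  w_ne : w ≠ 1
  vw_ne : v ≠ w
  v_sq : v * v = 1
  w_sq : w * w = 1
  comm : v * w = w * v
  cent : ∀ x : Γ, x = v ∨ x = w ∨ x = v * w →
    Nat.card ↥(G ⊓ Subgroup.centralizer ({x} : Set Γ)) ≤ c

/-- `Γ = G · {1, v, w, v * w}`. -/
def Gen {Γ : Type u} [Group Γ] (G : Subgroup Γ) (v w : Γ) : Prop :=
  ∀ γ : Γ, ∃ x ∈ G, ∃ u : Γ, (u = 1 ∨ u = v ∨ u = w ∨ u = v * w) ∧ γ = x * u

/-- No nontrivial normal subgroup of `Γ` of odd order inside `G`. -/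
def NoOdd {Γ : Type u} [Group Γ] (G : Subgroup Γ) : Prop :=
  ∀ K : Subgroup Γ, K.Normal → K ≤ G → Odd (Nat.card K) → K = ⊥

/-- No nontrivial normal 2-subgroup of `Γ` inside `G`. -/
def NoTwo {Γ : Type u} [Group Γ] (G : Subgroup Γ) : Prop :=
  ∀ K : Subgroup Γ, K.Normal → K ≤ G → IsPGroup 2 K → K = ⊥

/-- Theorem A with bound `N` for the parameters `a`, `c`. -/
def KB (a c N : ℕ) : Prop :=
  ∀ (Γ : Type u) [Group Γ] [Finite Γ] (G : Subgroup Γ) (v w : Γ), Setting G v w c →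
    (Nat.card G).factorization 2 ≤ a → Nat.card G ≤ N

/-- Theorem A when `Γ = G · ⟨v, w⟩`. -/
def KBg (a c N : ℕ) : Prop :=
  ∀ (Γ : Type u) [Group Γ] [Finite Γ] (G : Subgroup Γ) (v w : Γ), Setting G v w c →
    Gen G v w → (Nat.card G).factorization 2 ≤ a → Nat.card G ≤ N

/-- Theorem A when `Γ = G · ⟨v, w⟩` and `G` has no `Γ`-normal subgroup of odd order. -/
def KBr (a c N : ℕ) : Prop :=
  ∀ (Γ : Type u) [Group Γ] [Finite Γ] (G : Subgroup Γ) (v w : Γ), Setting G v w c →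
    Gen G v w → NoOdd G → (Nat.card G).factorization 2 ≤ a → Nat.card G ≤ N

/-! ### Theorem A: general tools -/

/-- QC: centralizers do not grow in quotients: `|C_{G/T}(xT)| ≤ |C_G(x)|` for `T ≤ G`, `T ⊴ Γ`.
(`S = {g ∈ G : x g x⁻¹ g⁻¹ ∈ T} ⊇ T` maps onto `C_{G/T}(xT)` with fibres the cosets of `T`, and
`g ↦ x g x⁻¹ g⁻¹ : S → T` has fibres inside cosets of `C_G(x)`.) -/
def QC : Prop :=
  ∀ (Γ : Type u) [Group Γ] [Finite Γ] (T : Subgroup Γ) [T.Normal] (G : Subgroup Γ) (x : Γ),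
    T ≤ G →
    Nat.card ↥(G.map (QuotientGroup.mk' T) ⊓
      Subgroup.centralizer ({QuotientGroup.mk' T x} : Set (Γ ⧸ T))) ≤
    Nat.card ↥(G ⊓ Subgroup.centralizer ({x} : Set Γ))

/-- PGQ: for an involution `x` and `Z ⊴ Γ` of odd order, `Z ≤ P`:
`|C_{P/Z}(xZ)| · |C_Z(x)| = |C_P(x)|`.  (A coset `gZ` fixed by conjugation with `x` is a set of
odd size with an involution, hence contains a fixed point: `C_{P/Z}(xZ)` is the image of
`C_P(x)`, with kernel `C_Z(x)`.) -/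
def PGQ : Prop :=
  ∀ (Γ : Type u) [Group Γ] [Finite Γ] (Z : Subgroup Γ) [Z.Normal] (P : Subgroup Γ) (x : Γ),
    Odd (Nat.card Z) → Z ≤ P → x * x = 1 →
    Nat.card ↥(P.map (QuotientGroup.mk' Z) ⊓
      Subgroup.centralizer ({QuotientGroup.mk' Z x} : Set (Γ ⧸ Z))) *
      Nat.card ↥(Z ⊓ Subgroup.centralizer ({x} : Set Γ)) =
    Nat.card ↥(P ⊓ Subgroup.centralizer ({x} : Set Γ))

/-- PGZ: a nontrivial `p`-group `P` (`p` odd) normalized by the commuting involutions `v`, `w`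
has a central subgroup `Z` of order `p` on which each of `v`, `w` acts as `z ↦ z` or
`z ↦ z⁻¹`.  (`A = Z(P)`; `A₁ = C_A(v)` if this is nontrivial, else `A₁ = A` is inverted by `v`;
`A₂` likewise from `A₁` with `w`; any subgroup of order `p` of `A₂`.) -/
def PGZ : Prop :=
  ∀ (Γ : Type u) [Group Γ] [Finite Γ] (p : ℕ), p.Prime → p ≠ 2 → ∀ (P : Subgroup Γ) (v w : Γ),
    IsPGroup p P → P ≠ ⊥ → v * v = 1 → w * w = 1 → v * w = w * v →
    (∀ x ∈ P, v * x * v⁻¹ ∈ P) → (∀ x ∈ P, w * x * w⁻¹ ∈ P) →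
    ∃ Z : Subgroup Γ, Z ≤ P ∧ Nat.card Z = p ∧ (∀ z ∈ Z, ∀ x ∈ P, x * z = z * x) ∧
      ((∀ z ∈ Z, v * z * v⁻¹ = z) ∨ (∀ z ∈ Z, v * z * v⁻¹ = z⁻¹)) ∧
      ((∀ z ∈ Z, w * z * w⁻¹ = z) ∨ (∀ z ∈ Z, w * z * w⁻¹ = z⁻¹))

/-- PG: a `p`-group `P` (`p` odd) normalized by the commuting involutions `v`, `w` has
`|P| ≤ |C_P(v)| · |C_P(w)| · |C_P(v w)|`.  (Induction on `|P|`: with `Z` from `PGZ`, work in
`N_Γ(Z) / Z`; by `PGQ` each centralizer order is divided by `|C_Z(x)|`, and at least one of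
`v`, `w`, `v w` centralizes `Z`.) -/
def PG : Prop :=
  ∀ (Γ : Type u) [Group Γ] [Finite Γ] (p : ℕ), p.Prime → p ≠ 2 → ∀ (P : Subgroup Γ) (v w : Γ),
    IsPGroup p P → v * v = 1 → w * w = 1 → v * w = w * v →
    (∀ x ∈ P, v * x * v⁻¹ ∈ P) → (∀ x ∈ P, w * x * w⁻¹ ∈ P) →
    Nat.card P ≤ Nat.card ↥(P ⊓ Subgroup.centralizer ({v} : Set Γ)) *
      Nat.card ↥(P ⊓ Subgroup.centralizer ({w} : Set Γ)) *
      Nat.card ↥(P ⊓ Subgroup.centralizer ({v * w} : Set Γ))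

/-- ODD: Theorem A for `G` of odd order, with bound `c ^ 3`.  (For each prime `p` the 2-group
`⟨v, w⟩` fixes a Sylow `p`-subgroup `P_p` of `G` (their number is odd); by `PG`
`|P_p| ≤ ∏_x |C_{P_p}(x)|` and `|C_{P_p}(x)|` divides `|C_G(x)|`; so `|G|` divides
`∏_x |C_G(x)|`.) -/
def ODD : Prop :=
  ∀ c : ℕ, KB.{u} 0 c (c ^ 3)

/-! ### Theorem A: reductions -/

/-- RG: reduction to `Γ = G · ⟨v, w⟩` (replace `Γ` by the subgroup `G ⊔ ⟨v, w⟩`). -/
def RG : Prop :=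
  ∀ a c N : ℕ, KBg.{u} a c N → KB.{u} a c N

/-- RO: reduction to `NoOdd` (divide by the largest `Γ`-normal subgroup `O ≤ G` of odd order:
`|O| ≤ c ^ 3` by the odd case, centralizers do not grow by `QC`, and `v`, `w`, `v w ∉ O`). -/
def RO : Prop :=
  ∀ a c N : ℕ, KB.{u} 0 c (c ^ 3) → KBr.{u} a c N → KBg.{u} a c (c ^ 3 * N)

/-! ### Theorem A: the inductive step -/

/-- TWO: if `G` contains a nontrivial `Γ`-normal 2-subgroup `T`, then
`|G| ≤ c · (2 ^ (a + 1))! + 2 ^ (a + 1) · N`.  (`A = Z(T) ⊴ Γ`, `1 < |A| ≤ 2 ^ (a + 1)`.  If one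
of `v`, `w`, `v w` lies in `A` then `C_G(A) ≤ C_G(x)` and `G / C_G(A)` embeds in `Sym(A)`.
Otherwise apply the induction hypothesis to `G / A ⊴ Γ / A` (with `QC`).) -/
def TWO : Prop :=
  ∀ a c N : ℕ, KB.{u} a c N →
    ∀ (Γ : Type u) [Group Γ] [Finite Γ] (G : Subgroup Γ) (v w : Γ), Setting G v w c →
    (Nat.card G).factorization 2 ≤ a + 1 →
    ∀ T : Subgroup Γ, T.Normal → T ≤ G → IsPGroup 2 T → T ≠ ⊥ →
    Nat.card G ≤ c * (2 ^ (a + 1)).factorial + 2 ^ (a + 1) * N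

/-- FIX: if `|G|` is even, some involution of `G` commutes with `v` and `w`.  (The number of
`z ∈ G` with `z ^ 2 = 1` is even; so is the number of those fixed by `v`, and then by `w`.) -/
def FIX : Prop :=
  ∀ (Γ : Type u) [Group Γ] [Finite Γ] (G : Subgroup Γ) (v w : Γ), G.Normal →
    Even (Nat.card G) → v * v = 1 → w * w = 1 → v * w = w * v →
    ∃ z ∈ G, z ≠ 1 ∧ z * z = 1 ∧ z * v = v * z ∧ z * w = w * z

/-- CZ: an involution `z ∈ G` commuting with `v`, `w` has `|C_G(z)| ≤ c + 2 N`.  (If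
`z ∈ {v, w, v w}` this is `≤ c`.  Otherwise apply the induction hypothesis to
`C_G(z) / ⟨z⟩ ⊴ C_Γ(z) / ⟨z⟩` (with `QC`).) -/
def CZ : Prop :=
  ∀ a c N : ℕ, KB.{u} a c N →
    ∀ (Γ : Type u) [Group Γ] [Finite Γ] (G : Subgroup Γ) (v w : Γ), Setting G v w c →
    (Nat.card G).factorization 2 ≤ a + 1 →
    ∀ z ∈ G, z ≠ 1 → z * z = 1 → z * v = v * z → z * w = w * z →
    Nat.card ↥(G ⊓ Subgroup.centralizer ({z} : Set Γ)) ≤ c + 2 * N

/-- BF (Brauer–Fowler): if the involution `z ∈ G` has `|C_G(z)| ≤ n` and `2 n ≤ |G|`, some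
`g ≠ 1` in `G` has at most `2 n ^ 2` conjugates under `G`.  (Count the pairs `(x, y)` of
conjugates of `z`: `x y = g ≠ 1` forces `x g x⁻¹ = g⁻¹`, at most `|C_G(g)|` choices of `x`.) -/
def BF : Prop :=
  ∀ (Γ : Type u) [Group Γ] [Finite Γ] (G : Subgroup Γ) (z : Γ) (n : ℕ), z ∈ G → z ≠ 1 →
    z * z = 1 → Nat.card ↥(G ⊓ Subgroup.centralizer ({z} : Set Γ)) ≤ n → 2 * n ≤ Nat.card G →
    ∃ g ∈ G, g ≠ 1 ∧ Nat.card G ≤ 2 * n ^ 2 * Nat.card ↥(G ⊓ Subgroup.centralizer ({g} : Set Γ))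

/-- NC: if `Γ = G · ⟨v, w⟩` and `g ∈ G` has at most `m` conjugates under `G`, then
`C_G(⟨g ^ Γ⟩)` has index at most `(4 m)!` in `G`.  (`g` has at most `4 m` conjugates under `Γ`,
and `G` permutes them with kernel `C_G(⟨g ^ Γ⟩)`.) -/
def NC : Prop :=
  ∀ (Γ : Type u) [Group Γ] [Finite Γ] (G : Subgroup Γ) (v w : Γ) (m : ℕ), G.Normal →
    Gen G v w → ∀ g ∈ G, Nat.card G ≤ m * Nat.card ↥(G ⊓ Subgroup.centralizer ({g} : Set Γ)) →
    Nat.card G ≤ (4 * m).factorial *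
      Nat.card ↥(G ⊓ Subgroup.centralizer ((Subgroup.normalClosure ({g} : Set Γ) : Subgroup Γ) : Set Γ))

/-- YN: if `G` has no nontrivial `Γ`-normal subgroup of odd order and none of 2-power order,
and `1 ≠ Y ⊴ Γ`, `Y ≤ G`, then `|C_G(Y)|_2 < |G|_2`.  (`Z(Y) ⊴ Γ` is abelian, its 2-part is
trivial, so it has odd order, so `Z(Y) = 1`; `|Y|` is even; `Y × C_G(Y) ≤ G`.) -/
def YN : Prop :=
  ∀ (Γ : Type u) [Group Γ] [Finite Γ] (G : Subgroup Γ), G.Normal → NoOdd G → NoTwo G →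
    ∀ Y : Subgroup Γ, Y.Normal → Y ≤ G → Y ≠ ⊥ →
    (Nat.card ↥(G ⊓ Subgroup.centralizer (Y : Set Γ))).factorization 2 + 1 ≤
      (Nat.card G).factorization 2

/-! ### The block side -/

/-- Deficiency class `r` for `p = 2`: no non-principal 2-block of defect `≥ r`. -/
def DC (M : Ideal AlgInt) (X : Type u) [Group X] (r : ℕ) : Prop :=
  ∀ B : Set (IrrCharacter X), IsPBlock M B → B ≠ principalBlock M X → blockDefect 2 B < r

/-- S4719 for fixed `r`, `a` with bound `N`. -/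
def Bd (r a N : ℕ) : Prop :=
  ∀ (G : Type u) [Group G] [Finite G] (M : Ideal AlgInt) (P : Sylow 2 G), IsPModular 2 M →
    Nat.card P = 2 ^ a → DC M G r →
    (∃ E : Subgroup G, E ≤ (P : Subgroup G) ∧ IsMulCommutative E ∧ (∀ x ∈ E, x * x = 1) ∧
      Nat.card E = 2 ^ (r + 1)) →
    Nat.card G ≤ N

/-- DQ: deficiency class drops by one in the quotient by a central subgroup of order 2.
(Let `B̄` be a non-principal block of `X / Z`, `χ̄ ∈ B̄`, `B` the block of the inflation `χ`.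
`B` is not principal by `Helper16.QuotP.sameBlock_of_comp_mk_pGroup`; all of `B̄` inflates into
`B` by `Helper16.Quot.sameBlock_comp_mk`; `χ(1)` divides `|X / Z|`, so
`defect B̄ + 1 ≤ defect B < r + 1`.) -/
def DQ : Prop :=
  ∀ (X : Type u) [Group X] [Finite X] (M : Ideal AlgInt), IsPModular 2 M →
    ∀ (Z : Subgroup X) [Z.Normal], Z ≤ Subgroup.center X → Nat.card Z = 2 →
    ∀ r : ℕ, DC M X (r + 1) → DC M (X ⧸ Z) r

/-- CB: under the induction hypothesis for `r`, the involutions of `E` have bounded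
centralizers.  (`X = C_G(x)` has deficiency class `r + 1` by S4717, `X / ⟨x⟩` has deficiency
class `r` by `DQ` and contains the image of `E`, of order `2 ^ (r + 1)`; its Sylow 2-subgroups
have order `2 ^ a'` with `a' < a`.) -/
def CB : Prop :=
  ∀ (r a : ℕ) (Nf : ℕ → ℕ), (∀ a' : ℕ, Bd.{u} r a' (Nf a')) →
    ∀ (G : Type u) [Group G] [Finite G] (M : Ideal AlgInt) (P : Sylow 2 G), IsPModular 2 M →
    Nat.card P = 2 ^ a → DC M G (r + 1) →
    ∀ E : Subgroup G, E ≤ (P : Subgroup G) → IsMulCommutative E → (∀ x ∈ E, x * x = 1) →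
    Nat.card E = 2 ^ (r + 2) →
    ∀ x ∈ E, x ≠ 1 →
    Nat.card ↥(Subgroup.centralizer ({x} : Set G)) ≤ 2 * ∑ a' ∈ Finset.range a, Nf a'

/-- PICK: a subgroup with at least three elements contains two distinct nontrivial elements. -/
def PICK : Prop :=
  ∀ (G : Type u) [Group G] (E : Subgroup G), 3 ≤ Nat.card E →
    ∃ v ∈ E, ∃ w ∈ E, v ≠ 1 ∧ w ≠ 1 ∧ v ≠ w

end Cfsg.Agent.Lib.Helper75.DCStmt
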