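import Mathlib
import Cfsg.Prelude.Def_Blocks
import Cfsg.Agent.Lib.Helper77.LocalRing
import Cfsg.Agent.Lib.Helper77.BlockIdem
import Cfsg.Agent.Lib.Helper77.DefectClass
import Cfsg.Agent.Lib.Helper77.OsimaVanish
import Cfsg.Agent.Lib.Helper16.MinMax
import Cfsg.Agent.Lib.Helper16.ZR
import Cfsg.Agent.Lib.Helper16.Defect
import Cfsg.Agent.Lib.Helper33.Conj
import Cfsg.Agent.Lib.Helper82.BlockDim
import Cfsg.Agent.Lib.Helper75.RealBlock
import Cfsg.Agent.Lib.Helper75.SepClasses
import Cfsg.Agent.Lib.Helper75.RankExt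
import Cfsg.Agent.Lib.CT.DefectZeroBlock

/-!
# Robinson's count of blocks with a normal defect group

Ingredients for: the number of `p`-blocks with normal defect group `D` is the rank modulo `p` of
the matrix `(#{(y, z) ∈ K_i × K_j : z y⁻¹ ∈ S} / p^(a-d))` over the `p`-regular classes with
defect group `D`.
-/

set_option autoImplicit false
set_option linter.style.haveILetI false

namespace Cfsg.Agent.Lib.Helper75.Robinson

open Cfsg Cfsg.Agent.Lib.Helper77.LocalRing Cfsg.Agent.Lib.Helper33.Conj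
  Cfsg.Agent.Lib.Helper16.MinMax Cfsg.Agent.Lib.Helper16.ZR
open scoped ComplexConjugate

universe u
variable {G : Type u} [Group G]

/-- `g` is a `p`-regular element whose centralizer has Sylow `p`-subgroup `D`. -/
def Good (p : ℕ) (D : Subgroup G) (g : G) : Prop :=
  ¬ p ∣ orderOf g ∧ IsSylIn p D (Subgroup.centralizer ({g} : Set G))

theorem good_conj {p : ℕ} {D : Subgroup G} [D.Normal] {g : G} (h : Good p D g) (x : G) :
    Good p D (x * g * x⁻¹) := by
  refine ⟨?_, ?_⟩
  · have h1 : orderOf (x * g * x⁻¹) = orderOf g :=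
      orderOf_injective (MulAut.conj x).toMonoidHom (MulAut.conj x).injective g
    rw [h1]
    exact h.1
  · rw [centralizer_conj]
    have h2 := h.2.cj x
    have h3 : D.map (MulAut.conj x).toMonoidHom = D := Subgroup.Normal.map_conj_eq D x
    rwa [h3] at h2

theorem good_of_isConj {p : ℕ} {D : Subgroup G} [D.Normal] {g h : G} (hg : Good p D g)
    (hc : IsConj g h) : Good p D h := by
  obtain ⟨x, rfl⟩ := isConj_iff.mp hc
  exact good_conj hg x

theorem good_inv {p : ℕ} {D : Subgroup G} {g : G} (h : Good p D g⁻¹) : Good p D g := by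
  unfold Good at h ⊢
  rwa [Cfsg.Agent.Lib.Helper75.RealBlock.centralizer_inv, orderOf_inv] at h

theorem card_of_isSylIn [Finite G] {p : ℕ} [Fact p.Prime] {D C : Subgroup G}
    (h : IsSylIn p D C) : (Nat.card C).factorization p = (Nat.card D).factorization p := by
  have hp : p.Prime := Fact.out
  have h1 : Nat.card D * D.relIndex C = Nat.card C := by
    have h2 := Subgroup.card_mul_index (D.subgroupOf C)
    have h3 : Nat.card (D.subgroupOf C) = Nat.card D :=
      Nat.card_congr (Subgroup.subgroupOfEquivOfLe h.1).toEquiv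
    rw [h3] at h2
    exact h2
  have hr0 : D.relIndex C ≠ 0 := by
    intro h0
    rw [h0, mul_zero] at h1
    exact Nat.card_pos.ne' h1.symm
  rw [← h1, Nat.factorization_mul Nat.card_pos.ne' hr0, Finsupp.add_apply,
    Nat.factorization_eq_zero_of_not_dvd h.2.2, add_zero]

theorem good_card [Finite G] {p : ℕ} [Fact p.Prime] {D : Subgroup G} {g : G}
    (h : Good p D g) :
    (Nat.card (Subgroup.centralizer ({g} : Set G))).factorization p
      = (Nat.card D).factorization p := card_of_isSylIn h.2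

theorem good_index [Finite G] {p : ℕ} [Fact p.Prime] {D : Subgroup G} {g : G}
    (h : Good p D g) :
    (Nat.card D).factorization p + ((Subgroup.centralizer ({g} : Set G)).index).factorization p
      = (Nat.card G).factorization p := by
  have h1 := Subgroup.card_mul_index (Subgroup.centralizer ({g} : Set G))
  rw [← h1, Nat.factorization_mul Nat.card_pos.ne' Subgroup.index_ne_zero_of_finite,
    Finsupp.add_apply, good_card h]

variable {M : Ideal AlgInt}

/-- Min-max: if the idempotent coefficient of `B'` and the central character of `B` are both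
units at `g`, where `B`, `B'` have the normal defect group `D`, then `g` is good. -/
theorem good_of_not_mem [Finite G] (p : ℕ) [Fact p.Prime] (hM : IsPModular p M)
    (D : Subgroup G) [D.Normal] (B B' : Set (IrrCharacter G)) (hB : IsPBlock M B)
    (hB' : IsPBlock M B') (hBD : IsDefectGroup p M B D) (hBD' : IsDefectGroup p M B' D)
    (χ : IrrCharacter G) (hχ : χ ∈ B) (g : G)
    (h1 : ¬ MemLocalIdeal M (blockCoeff B' g))
    (h2 : ¬ MemLocalIdeal M (centralChar (χ : G → ℂ) g)) : Good p D g := by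
  have hMp := isPrime_of_isPModular hM
  refine ⟨fun hdvd => h1 ?_, ?_⟩
  · rw [Cfsg.Agent.Lib.Helper77.OsimaVanish.blockCoeff_eq_zero_of_singular p M hM B' hB' g hdvd]
    exact memLocalIdeal_zero hMp
  · rw [isDefectGroup_iff] at hBD hBD'
    obtain ⟨k, hk, hDk⟩ := hBD
    obtain ⟨k', hk', hDk'⟩ := hBD'
    obtain ⟨x, Q, hQ, hDQ⟩ := minmax_b hM B hB k hk D hDk g ⟨χ, hχ, h2⟩
    obtain ⟨y, hy⟩ := minmax_a hM B' hB' k' hk' D hDk' g h1 Q hQ.2.1 hQ.1
    have hx : D.map (MulAut.conj x).toMonoidHom = D := Subgroup.Normal.map_conj_eq D x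
    have hy' : D.map (MulAut.conj y).toMonoidHom = D := Subgroup.Normal.map_conj_eq D y
    rw [hx] at hDQ
    rw [hy'] at hy
    have hQD : Q = D := le_antisymm hy hDQ
    rw [← hQD]
    exact hQ

open Classical in
/-- A sum over the group of a class function `Φ` is congruent to the sum over the good classes
of `|class| Φ`, when the latter is in the local ideal at the bad elements. -/
theorem sum_sub_sum_mem [Fintype G] {p : ℕ} (hMp : M.IsPrime) (D : Subgroup G)
    {ι : Type*} [Fintype ι] (K : ι → ConjClasses G) (hKinj : Function.Injective K)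
    (hK : ∀ C : ConjClasses G, (∃ i, K i = C) ↔ ∃ x ∈ C.carrier, Good p D x)
    (Φ Ψ : G → ℂ) (hΦ : ∀ x g : G, Φ (x * g * x⁻¹) = Φ g)
    (hΨ : ∀ g : G, Ψ g = ((Subgroup.centralizer ({g} : Set G)).index : ℂ) * Φ g)
    (hbad : ∀ g : G, ¬ Good p D g → MemLocalIdeal M (Ψ g)) :
    MemLocalIdeal M (∑ g : G, Φ g - ∑ i, Ψ (K i).out) := by
  rw [Cfsg.Agent.Lib.Helper77.DefectClass.sum_eq_sum_classes Φ hΦ]
  have h1 : ∑ i, Ψ (K i).out
      = ∑ c : ConjClasses G, if c ∈ Set.range K then Ψ c.out else 0 := by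
    refine Fintype.sum_of_injective K hKinj _ _ ?_ ?_
    · intro c hc
      rw [if_neg hc]
    · intro i
      rw [if_pos (Set.mem_range_self i)]
  rw [h1, ← Finset.sum_sub_distrib]
  refine memLocalIdeal_sum hMp _ _ fun c _ => ?_
  by_cases hc : c ∈ Set.range K
  · rw [if_pos hc, ← hΨ, sub_self]
    exact memLocalIdeal_zero hMp
  · rw [if_neg hc, sub_zero, ← hΨ]
    apply hbad
    intro hg
    apply hc
    obtain ⟨i, hi⟩ := (hK c).2 ⟨c.out, ConjClasses.mem_carrier_iff_mk_eq.2 (Quotient.out_eq c), hg⟩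
    exact ⟨i, hi⟩

open Classical in
/-- Orthogonality modulo the local ideal between central characters and idempotent coefficients
of blocks with the normal defect group `D`, summed over the good classes. -/
theorem sum_omega_coeff [Finite G] (p : ℕ) [Fact p.Prime] (hM : IsPModular p M)
    (D : Subgroup G) [D.Normal]
    {ι : Type*} [Fintype ι] (K : ι → ConjClasses G) (hKinj : Function.Injective K)
    (hK : ∀ C : ConjClasses G, (∃ i, K i = C) ↔ ∃ x ∈ C.carrier, Good p D x)
    (B B' : Set (IrrCharacter G)) (hB : IsPBlock M B)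
    (hB' : IsPBlock M B') (hBD : IsDefectGroup p M B D) (hBD' : IsDefectGroup p M B' D)
    (χ : IrrCharacter G) (hχ : χ ∈ B) :
    MemLocalIdeal M (∑ i, centralChar (χ : G → ℂ) (K i).out * blockCoeff B' (K i).out
        - if χ ∈ B' then 1 else 0) ∧
      MemLocalIdeal M (∑ i, centralChar (χ : G → ℂ) (K i).out⁻¹ * blockCoeff B' (K i).out⁻¹
        - if χ ∈ B' then 1 else 0) := by
  have hMp := isPrime_of_isPModular hM
  have := Fintype.ofFinite G
  have hcl : ∀ x g : G, (χ : G → ℂ) (x * g * x⁻¹) = (χ : G → ℂ) g := fun x g => irr_conj_inv χ x g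
  obtain ⟨Φ, hΦdef⟩ : ∃ Φ : G → ℂ, Φ = fun g => blockCoeff B' g * (χ : G → ℂ) g / (χ : G → ℂ) 1 :=
    ⟨_, rfl⟩
  have hΦcl : ∀ x g : G, Φ (x * g * x⁻¹) = Φ g := by
    intro x g
    rw [hΦdef]
    show blockCoeff B' (x * g * x⁻¹) * (χ : G → ℂ) (x * g * x⁻¹) / (χ : G → ℂ) 1 = _
    rw [Cfsg.Agent.Lib.Helper77.BlockIdem.blockCoeff_conj, hcl]
  have hsum : ∑ g : G, Φ g = if χ ∈ B' then 1 else 0 := by
    have h1 := Cfsg.Agent.Lib.Helper77.BlockIdem.omega_blockIdem B' χ
    unfold Cfsg.Agent.Lib.Helper77.CentralChar.omega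
      Cfsg.Agent.Lib.Helper77.BlockIdem.blockIdem at h1
    rw [Cfsg.Agent.Lib.Helper77.ClassSum.pair_ofFun, Finset.sum_div] at h1
    rw [← h1, hΦdef]
  have hΨ : ∀ g : G, centralChar (χ : G → ℂ) g * blockCoeff B' g
      = ((Subgroup.centralizer ({g} : Set G)).index : ℂ) * Φ g := by
    intro g
    rw [hΦdef]
    unfold centralChar
    ring
  have hbad : ∀ g : G, ¬ Good p D g →
      MemLocalIdeal M (centralChar (χ : G → ℂ) g * blockCoeff B' g) := by
    intro g hg
    have hω : MemLocalRing M (centralChar (χ : G → ℂ) g) :=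
      memLocalRing_of_isIntegral hMp
        (Cfsg.Agent.Lib.Helper80.Integrality.isIntegral_centralChar χ g)
    have ha : MemLocalRing M (blockCoeff B' g) :=
      Cfsg.Agent.Lib.Helper77.BlockIdem.blockCoeff_memLocalRing p M hM B' hB' g
    by_cases h1 : MemLocalIdeal M (blockCoeff B' g)
    · exact memLocalIdeal_mul_left hMp hω h1
    · by_cases h2 : MemLocalIdeal M (centralChar (χ : G → ℂ) g)
      · exact memLocalIdeal_mul_right hMp h2 ha
      · exact absurd (good_of_not_mem p hM D B B' hB hB' hBD hBD' χ hχ g h1 h2) hg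
  constructor
  · have h := sum_sub_sum_mem hMp D K hKinj hK Φ
      (fun g => centralChar (χ : G → ℂ) g * blockCoeff B' g) hΦcl hΨ hbad
    rw [hsum] at h
    exact memLocalIdeal_sub_comm h
  · have hΦcl' : ∀ x g : G, Φ (x * g * x⁻¹)⁻¹ = Φ g⁻¹ := by
      intro x g
      have : (x * g * x⁻¹)⁻¹ = x * g⁻¹ * x⁻¹ := by group
      rw [this, hΦcl]
    have hΨ' : ∀ g : G, centralChar (χ : G → ℂ) g⁻¹ * blockCoeff B' g⁻¹
        = ((Subgroup.centralizer ({g} : Set G)).index : ℂ) * Φ g⁻¹ := by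
      intro g
      rw [hΨ g⁻¹, Cfsg.Agent.Lib.Helper75.RealBlock.centralizer_inv]
    have hbad' : ∀ g : G, ¬ Good p D g →
        MemLocalIdeal M (centralChar (χ : G → ℂ) g⁻¹ * blockCoeff B' g⁻¹) := by
      intro g hg
      exact hbad g⁻¹ (fun h => hg (good_inv h))
    have h := sum_sub_sum_mem hMp D K hKinj hK (fun g => Φ g⁻¹)
      (fun g => centralChar (χ : G → ℂ) g⁻¹ * blockCoeff B' g⁻¹) hΦcl' hΨ' hbad'
    have hsum' : ∑ g : G, Φ g⁻¹ = ∑ g : G, Φ g := Equiv.sum_comp (Equiv.inv G) Φ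
    rw [hsum', hsum] at h
    exact memLocalIdeal_sub_comm h

/-! ### The counting formula -/

theorem card_centralizer_of_isConj [Finite G] {a b : G} (h : IsConj a b) :
    Nat.card (Subgroup.centralizer ({b} : Set G))
      = Nat.card (Subgroup.centralizer ({a} : Set G)) := by
  obtain ⟨x, rfl⟩ := isConj_iff.mp h
  rw [centralizer_conj, card_cj]

theorem mem_carrier_iff_isConj {C : ConjClasses G} {g : G} (hg : g ∈ C.carrier) (y : G) :
    y ∈ C.carrier ↔ IsConj g y := by
  rw [ConjClasses.mem_carrier_iff_mk_eq] at hg ⊢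
  rw [← hg, ConjClasses.mk_eq_mk_iff_isConj]
  exact ⟨IsConj.symm, IsConj.symm⟩

theorem sum_ite_mem_subgroup [Fintype G] (S : Subgroup G) [Fintype S] (F : G → ℂ)
    [DecidablePred (· ∈ S)] :
    ∑ t : G, (if t ∈ S then F t else 0) = ∑ s : S, F s := by
  rw [← Finset.sum_filter]
  exact Finset.sum_subtype (Finset.univ.filter (· ∈ S)) (by simp) F

open Classical in
/-- The class-multiplication count: `c ∑_χ n_χ ω_χ(g) conj(χ(h))` is `|C(h)|` times the number of
pairs `(y, z)` with `y ~ g`, `z ~ h` and `z y⁻¹ ∈ S`, when `∑_{s ∈ S} χ(s) = c n_χ`. -/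
theorem count_formula [Fintype G] [Fintype (IrrCharacter G)] (S : Subgroup G) [Fintype S]
    (n : IrrCharacter G → ℕ) (c : ℕ)
    (hn : ∀ χ : IrrCharacter G, ∑ s : S, (χ : G → ℂ) (s : G) = (c : ℂ) * n χ)
    (C₁ C₂ : ConjClasses G) (g h : G) (hg : g ∈ C₁.carrier) (hh : h ∈ C₂.carrier) :
    (c : ℂ) * ∑ χ : IrrCharacter G,
        (n χ : ℂ) * (centralChar (χ : G → ℂ) g * conj ((χ : G → ℂ) h))
      = (Nat.card (Subgroup.centralizer ({h} : Set G)) : ℂ)
        * (Nat.card {yz : G × G // yz.1 ∈ C₁.carrier ∧ yz.2 ∈ C₂.carrier ∧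
            yz.2 * yz.1⁻¹ ∈ S} : ℂ) := by
  have h1 : ∀ s : G, ∑ χ : IrrCharacter G,
      centralChar (χ : G → ℂ) g * (χ : G → ℂ) s * conj ((χ : G → ℂ) h)
      = ∑ u : G, if IsConj g u ∧ IsConj (u * s) h then
          (Nat.card (Subgroup.centralizer ({h} : Set G)) : ℂ) else 0 := by
    intro s
    rw [Cfsg.Agent.Lib.Helper75.SepClasses.sum_centralChar_mul]
    refine Finset.sum_congr rfl fun u _ => ?_
    by_cases hgu : IsConj g u
    · by_cases hus : IsConj (u * s) h
      · rw [if_pos hgu, if_pos ⟨hgu, hus⟩, Cfsg.Agent.Lib.CT.Orth.card_conj_eq_of_isConj _ _ hus,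
          card_centralizer_of_isConj hus]
      · rw [if_pos hgu, if_neg (fun hh => hus hh.2),
          Cfsg.Agent.Lib.CT.Orth.card_conj_eq_of_not_isConj _ _ hus, Nat.cast_zero]
    · rw [if_neg hgu, if_neg (fun hh => hgu hh.1)]
  have h2 : (c : ℂ) * ∑ χ : IrrCharacter G,
        (n χ : ℂ) * (centralChar (χ : G → ℂ) g * conj ((χ : G → ℂ) h))
      = ∑ s : S, ∑ χ : IrrCharacter G,
          centralChar (χ : G → ℂ) g * (χ : G → ℂ) (s : G) * conj ((χ : G → ℂ) h) := by
    rw [Finset.sum_comm, Finset.mul_sum]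
    refine Finset.sum_congr rfl fun χ _ => ?_
    rw [← Finset.sum_mul, ← Finset.mul_sum, hn χ]
    ring
  rw [h2]
  simp_rw [h1]
  have h3 : (Nat.card {yz : G × G // yz.1 ∈ C₁.carrier ∧ yz.2 ∈ C₂.carrier ∧
      yz.2 * yz.1⁻¹ ∈ S} : ℂ)
      = ∑ y : G, ∑ z : G, if (y ∈ C₁.carrier ∧ z ∈ C₂.carrier ∧ z * y⁻¹ ∈ S) then (1 : ℂ)
          else 0 := by
    rw [Nat.card_eq_fintype_card, Fintype.card_subtype, Finset.card_filter, Nat.cast_sum,
      Fintype.sum_prod_type]
    refine Finset.sum_congr rfl fun y _ => Finset.sum_congr rfl fun z _ => ?_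
    split_ifs <;> simp
  rw [h3, Finset.sum_comm, Finset.mul_sum]
  refine Finset.sum_congr rfl fun y _ => ?_
  have h4 : ∑ z : G, (if (y ∈ C₁.carrier ∧ z ∈ C₂.carrier ∧ z * y⁻¹ ∈ S) then (1 : ℂ) else 0)
      = ∑ s : S, if (y ∈ C₁.carrier ∧ (s : G) * y ∈ C₂.carrier) then (1 : ℂ) else 0 := by
    rw [← sum_ite_mem_subgroup S
      (fun t => if (y ∈ C₁.carrier ∧ t * y ∈ C₂.carrier) then (1 : ℂ) else 0),
      ← Equiv.sum_comp (Equiv.mulRight y)]
    refine Finset.sum_congr rfl fun t _ => ?_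
    rw [Equiv.coe_mulRight, mul_inv_cancel_right]
    by_cases ht : t ∈ S
    · rw [if_pos ht]
      by_cases h5 : y ∈ C₁.carrier ∧ t * y ∈ C₂.carrier
      · rw [if_pos h5, if_pos ⟨h5.1, h5.2, ht⟩]
      · rw [if_neg h5, if_neg (fun hh => h5 ⟨hh.1, hh.2.1⟩)]
    · rw [if_neg ht, if_neg (fun hh => ht hh.2.2)]
  rw [h4, Finset.mul_sum]
  refine Finset.sum_congr rfl fun s _ => ?_
  have h5 : (IsConj g y ∧ IsConj (y * (s : G)) h) ↔
      (y ∈ C₁.carrier ∧ (s : G) * y ∈ C₂.carrier) := by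
    rw [mem_carrier_iff_isConj hg, mem_carrier_iff_isConj hh]
    have h6 : IsConj (y * (s : G)) ((s : G) * y) := isConj_iff.mpr ⟨y⁻¹, by group⟩
    constructor
    · rintro ⟨ha, hb⟩
      exact ⟨ha, (h6.symm.trans hb).symm⟩
    · rintro ⟨ha, hb⟩
      exact ⟨ha, h6.trans hb.symm⟩
  by_cases h7 : y ∈ C₁.carrier ∧ (s : G) * y ∈ C₂.carrier
  · rw [if_pos h7, if_pos (h5.2 h7), mul_one]
  · rw [if_neg h7, if_neg (fun hh => h7 (h5.1 hh)), mul_zero]

/-! ### Blocks with defect group `D` -/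

theorem index_of_isSylIn [Finite G] {p : ℕ} [Fact p.Prime] {D : Subgroup G} {g : G}
    (h : IsSylIn p D (Subgroup.centralizer ({g} : Set G))) :
    (Nat.card D).factorization p + ((Subgroup.centralizer ({g} : Set G)).index).factorization p
      = (Nat.card G).factorization p := by
  have h1 := Subgroup.card_mul_index (Subgroup.centralizer ({g} : Set G))
  rw [← h1, Nat.factorization_mul Nat.card_pos.ne' Subgroup.index_ne_zero_of_finite,
    Finsupp.add_apply, card_of_isSylIn h]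

open Classical in
/-- The weight of a block: `∑_{ψ ∈ B} ⟨ψ|_S, 1⟩ ψ(1) / p^(a-d)`. -/
noncomputable def tt [Fintype G] [Fintype (IrrCharacter G)] (p : ℕ) [Fact p.Prime]
    (S : Sylow p G) [Fintype (S : Subgroup G)] (D : Subgroup G) (B : Set (IrrCharacter G)) : ℕ :=
  ∑ ψ ∈ Finset.univ.filter (· ∈ B), Cfsg.Agent.Lib.Helper82.BlockDim.zz p S ψ
    * (charDegree (ψ : G → ℂ) / p ^ ((Nat.card G).factorization p - (Nat.card D).factorization p))

open Classical in
/-- In a block with defect group `D`, all degrees are divisible by `p^(a-d)` and the weight of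
the block is prime to `p`. -/
theorem block_facts [Fintype G] [Fintype (IrrCharacter G)] (p : ℕ) [Fact p.Prime]
    (hM : IsPModular p M) (D : Subgroup G) (S : Sylow p G) [Fintype (S : Subgroup G)]
    (B : Set (IrrCharacter G)) (hB : IsPBlock M B) (hBD : IsDefectGroup p M B D) :
    (∀ ψ ∈ B, p ^ ((Nat.card G).factorization p - (Nat.card D).factorization p)
      ∣ charDegree (ψ : G → ℂ)) ∧ ¬ p ∣ tt p S D B := by
  have hp : p.Prime := Fact.out
  have hMp := isPrime_of_isPModular hM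
  have hBD' := hBD
  rw [isDefectGroup_iff] at hBD'
  obtain ⟨k, hk, hDk⟩ := hBD'
  have hidx := index_of_isSylIn hDk
  unfold tt
  obtain ⟨e, he⟩ : ∃ e, e = (Nat.card G).factorization p - (Nat.card D).factorization p :=
    ⟨_, rfl⟩
  have hide : ((Subgroup.centralizer ({k} : Set G)).index).factorization p = e := by omega
  have hle : ∀ ψ ∈ B, e ≤ (charDegree (ψ : G → ℂ)).factorization p := by
    intro ψ hψ
    rw [← hide]
    exact Cfsg.Agent.Lib.Helper16.Defect.factorization_index_le_charDegree hM ψ k (hk.2.2 ψ hψ)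
  have hdvd : ∀ ψ ∈ B, p ^ e ∣ charDegree (ψ : G → ℂ) := fun ψ hψ =>
    (pow_dvd_pow p (hle ψ hψ)).trans (Nat.ordProj_dvd _ p)
  rw [← he]
  refine ⟨hdvd, ?_⟩
  have hcard := Cfsg.Agent.Lib.Helper16.Defect.card_defectGroup p hM B hB D hBD
  obtain ⟨χ₀, hχ₀⟩ := isPBlock_nonempty hMp hB
  have hne : ((fun χ : IrrCharacter G => (charDegree (χ : G → ℂ)).factorization p) '' B).Nonempty :=
    ⟨_, χ₀, hχ₀, rfl⟩
  obtain ⟨χ₁, hχ₁, hχ₁m⟩ := Nat.sInf_mem hne
  have hdD : (Nat.card D).factorization p = blockDefect p B := by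
    rw [hcard, Nat.Prime.factorization_pow hp, Finsupp.single_eq_same]
  have hν : (charDegree (χ₁ : G → ℂ)).factorization p = e := by
    have h1 : (charDegree (χ₁ : G → ℂ)).factorization p ≤ (Nat.card G).factorization p :=
      (Nat.factorization_le_iff_dvd (Cfsg.Agent.Lib.Helper80.Integrality.charDegree_pos χ₁).ne'
        Nat.card_pos.ne').2 (Cfsg.Agent.Lib.Helper80.Integrality.charDegree_dvd_card χ₁) p
    have h2 := hle χ₁ hχ₁
    unfold blockDefect at hdD
    rw [← hχ₁m] at hdD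
    simp only [] at hdD
    omega
  refine Cfsg.Agent.Lib.Helper82.BlockDim.not_dvd_sum_zz p S hM B hB χ₁ hχ₁ _ ?_
  intro ψ hψ
  rw [hν, Nat.mul_div_cancel' (hdvd ψ hψ)]

open Classical in
/-- The main congruence: the normalised count is congruent modulo the local ideal to a sum over
the blocks with defect group `D`. -/
theorem main_cong [Fintype G] [Fintype (IrrCharacter G)] (p : ℕ) [Fact p.Prime]
    (hM : IsPModular p M) (D : Subgroup G) [D.Normal]
    (S : Sylow p G) [Fintype (S : Subgroup G)]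
    {β : Type*} [Fintype β] (blk : β → Set (IrrCharacter G))
    (hblk : ∀ b, IsPBlock M (blk b) ∧ IsDefectGroup p M (blk b) D)
    (hinj : Function.Injective blk)
    (hsurj : ∀ B, IsPBlock M B → IsDefectGroup p M B D → ∃ b, blk b = B)
    (rep : β → IrrCharacter G) (hrep : ∀ b, rep b ∈ blk b)
    (g h : G) (hg : Good p D g) (hh : Good p D h) (N : ℕ)
    (hN : ((p ^ (Nat.card G).factorization p : ℕ) : ℂ) * ∑ χ : IrrCharacter G,
        (Cfsg.Agent.Lib.Helper82.BlockDim.zz p S χ : ℂ)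
          * (centralChar (χ : G → ℂ) g * conj ((χ : G → ℂ) h))
      = (Nat.card (Subgroup.centralizer ({h} : Set G)) : ℂ) * (N : ℂ)) :
    p ^ ((Nat.card G).factorization p - (Nat.card D).factorization p) ∣ N ∧
    MemLocalIdeal M
      (((N / p ^ ((Nat.card G).factorization p - (Nat.card D).factorization p) : ℕ) : ℂ)
        - ∑ b : β, (tt p S D (blk b) : ℂ)
            * (((p ^ (Nat.card G).factorization p : ℕ) : ℂ) / (Nat.card G : ℂ))
            * centralChar (rep b : G → ℂ) g * centralChar (rep b : G → ℂ) h⁻¹) := by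
  have hp : p.Prime := Fact.out
  have hMp := isPrime_of_isPModular hM
  have hgi := good_index hg
  have hhi := good_index hh
  have hhc := good_card hh
  obtain ⟨a, ha⟩ : ∃ a, a = (Nat.card G).factorization p := ⟨_, rfl⟩
  obtain ⟨d, hd⟩ : ∃ d, d = (Nat.card D).factorization p := ⟨_, rfl⟩
  rw [← ha] at hgi hhi hN ⊢
  rw [← hd] at hgi hhi hhc ⊢
  obtain ⟨e, he⟩ : ∃ e, e = a - d := ⟨_, rfl⟩
  rw [← he]
  have hda : d + e = a := by omega
  have hig : ((Subgroup.centralizer ({g} : Set G)).index).factorization p = e := by omega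
  have hih : ((Subgroup.centralizer ({h} : Set G)).index).factorization p = e := by omega
  have hpe0 : ((p ^ e : ℕ) : ℂ) ≠ 0 := Nat.cast_ne_zero.2 (pow_ne_zero _ hp.ne_zero)
  have hpd0 : ((p ^ d : ℕ) : ℂ) ≠ 0 := Nat.cast_ne_zero.2 (pow_ne_zero _ hp.ne_zero)
  have hG0 : (Nat.card G : ℂ) ≠ 0 := Nat.cast_ne_zero.2 Nat.card_pos.ne'
  have hfpe : (p ^ e).factorization p = e := by
    rw [Nat.Prime.factorization_pow hp, Finsupp.single_eq_same]
  have hfpd : (p ^ d).factorization p = d := by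
    rw [Nat.Prime.factorization_pow hp, Finsupp.single_eq_same]
  have hC0 : (Nat.card (Subgroup.centralizer ({h} : Set G)) : ℂ) ≠ 0 :=
    Nat.cast_ne_zero.2 Nat.card_pos.ne'
  have hI0 : ((Subgroup.centralizer ({h} : Set G)).index : ℂ) ≠ 0 :=
    Nat.cast_ne_zero.2 Subgroup.index_ne_zero_of_finite
  -- the units `cc = |C(h)| / p^d` and `uu = [G : C(h)] / p^e`
  obtain ⟨cc, hcc⟩ : ∃ cc : ℂ,
      cc = (Nat.card (Subgroup.centralizer ({h} : Set G)) : ℂ) / ((p ^ d : ℕ) : ℂ) := ⟨_, rfl⟩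
  obtain ⟨uu, huu⟩ : ∃ uu : ℂ,
      uu = ((Subgroup.centralizer ({h} : Set G)).index : ℂ) / ((p ^ e : ℕ) : ℂ) := ⟨_, rfl⟩
  have hccu := Cfsg.Agent.Lib.Helper75.SepClasses.natCast_div_unit hM
    (Nat.card (Subgroup.centralizer ({h} : Set G))) (p ^ d) Nat.card_pos.ne'
    (pow_ne_zero _ hp.ne_zero) (by rw [hhc, hfpd])
  have huuu := Cfsg.Agent.Lib.Helper75.SepClasses.natCast_div_unit hM
    ((Subgroup.centralizer ({h} : Set G)).index) (p ^ e) Subgroup.index_ne_zero_of_finite
    (pow_ne_zero _ hp.ne_zero) (by rw [hih, hfpe])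
  rw [← hcc] at hccu
  rw [← huu] at huuu
  have hcc0 : cc ≠ 0 := fun h0 => hccu.2 (h0 ▸ memLocalIdeal_zero hMp)
  have huu0 : uu ≠ 0 := fun h0 => huuu.2 (h0 ▸ memLocalIdeal_zero hMp)
  have hccinv : MemLocalRing M cc⁻¹ := memLocalRing_inv hccu.1 hccu.2
  have huuinv : MemLocalRing M uu⁻¹ := memLocalRing_inv huuu.1 huuu.2
  have hccuu : cc⁻¹ * uu⁻¹ = ((p ^ a : ℕ) : ℂ) / (Nat.card G : ℂ) := by
    have h1 : (Nat.card G : ℂ) = (Nat.card (Subgroup.centralizer ({h} : Set G)) : ℂ)
        * ((Subgroup.centralizer ({h} : Set G)).index : ℂ) := by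
      rw [← Nat.cast_mul, Subgroup.card_mul_index]
    have h2 : ((p ^ a : ℕ) : ℂ) = ((p ^ d : ℕ) : ℂ) * ((p ^ e : ℕ) : ℂ) := by
      rw [← Nat.cast_mul, ← pow_add, hda]
    rw [hcc, huu, h1, h2]
    field_simp
  -- the sum `A`
  obtain ⟨A, hA⟩ : ∃ A : ℂ, A = ∑ χ : IrrCharacter G,
      (Cfsg.Agent.Lib.Helper82.BlockDim.zz p S χ : ℂ)
        * (centralChar (χ : G → ℂ) g * conj ((χ : G → ℂ) h)) := ⟨_, rfl⟩
  rw [← hA] at hN
  have hωR : ∀ (χ : IrrCharacter G) (x : G), MemLocalRing M (centralChar (χ : G → ℂ) x) :=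
    fun χ x => memLocalRing_of_isIntegral hMp
      (Cfsg.Agent.Lib.Helper80.Integrality.isIntegral_centralChar χ x)
  have hconj : ∀ (χ : IrrCharacter G) (x : G), conj ((χ : G → ℂ) x) = (χ : G → ℂ) x⁻¹ :=
    fun χ x => (Cfsg.Agent.Lib.CT.Wedderburn.char_apply_inv
      (Cfsg.Agent.Lib.CT.Wedderburn.isCharacter_of_irr χ.2) x).symm
  have hχR : ∀ (χ : IrrCharacter G) (x : G), MemLocalRing M ((χ : G → ℂ) x) :=
    fun χ x => memLocalRing_of_isIntegral hMp
      (Cfsg.Agent.Lib.Helper80.Integrality.isIntegral_irrCharacter χ x)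
  have hcR : ∀ (χ : IrrCharacter G) (x : G), MemLocalRing M (conj ((χ : G → ℂ) x)) := by
    intro χ x
    rw [hconj]
    exact hχR χ x⁻¹
  have hAR : MemLocalRing M A := by
    rw [hA]
    exact memLocalRing_sum hMp _ _ fun χ _ => memLocalRing_mul hMp (memLocalRing_natCast hMp _)
      (memLocalRing_mul hMp (hωR χ g) (hcR χ h))
  have hNA : (N : ℂ) / ((p ^ e : ℕ) : ℂ) = cc⁻¹ * A := by
    have h1 : ((p ^ a : ℕ) : ℂ) = ((p ^ d : ℕ) : ℂ) * ((p ^ e : ℕ) : ℂ) := by
      rw [← Nat.cast_mul, ← pow_add, hda]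
    have h2 : (Nat.card (Subgroup.centralizer ({h} : Set G)) : ℂ) = cc * ((p ^ d : ℕ) : ℂ) := by
      rw [hcc]
      field_simp
    rw [h1, h2] at hN
    have h3 : cc * (N : ℂ) = ((p ^ e : ℕ) : ℂ) * A := by
      apply mul_left_cancel₀ hpd0
      linear_combination -hN
    rw [div_eq_iff hpe0]
    calc (N : ℂ) = cc⁻¹ * (cc * (N : ℂ)) := by field_simp
      _ = cc⁻¹ * A * ((p ^ e : ℕ) : ℂ) := by rw [h3]; ring
  have hNR : MemLocalRing M ((N : ℂ) / ((p ^ e : ℕ) : ℂ)) := by
    rw [hNA]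
    exact memLocalRing_mul hMp hccinv hAR
  have hdvd : p ^ e ∣ N := by
    rcases Nat.eq_zero_or_pos N with h0 | h0
    · rw [h0]
      exact dvd_zero _
    · have h1 := Cfsg.Agent.Lib.Helper16.Defect.factorization_le_of_memLocalRing hM N (p ^ e)
        h0.ne' (pow_ne_zero _ hp.ne_zero) hNR
      rw [hfpe] at h1
      exact (pow_dvd_pow p h1).trans (Nat.ordProj_dvd N p)
  refine ⟨hdvd, ?_⟩
  rw [Nat.cast_div hdvd hpe0, hNA]
  -- the contribution of each character
  obtain ⟨Gt, hGt⟩ : ∃ Gt : β → IrrCharacter G → ℂ, Gt = fun b χ =>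
      (Cfsg.Agent.Lib.Helper82.BlockDim.zz p S χ : ℂ)
        * ((charDegree (χ : G → ℂ) / p ^ e : ℕ) : ℂ)
        * (uu⁻¹ * (centralChar (rep b : G → ℂ) g * centralChar (rep b : G → ℂ) h⁻¹)) := ⟨_, rfl⟩
  have hclaim : ∀ χ : IrrCharacter G, MemLocalIdeal M
      ((Cfsg.Agent.Lib.Helper82.BlockDim.zz p S χ : ℂ)
          * (centralChar (χ : G → ℂ) g * conj ((χ : G → ℂ) h))
        - ∑ b : β, if χ ∈ blk b then Gt b χ else 0) := by
    intro χ
    by_cases hdef : IsDefectGroup p M (blockOf M (χ : G → ℂ)) D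
    · obtain ⟨b₀, hb₀⟩ := hsurj _ (isPBlock_blockOf χ) hdef
      have hχb₀ : χ ∈ blk b₀ := by
        rw [hb₀]
        exact mem_blockOf_self hMp χ
      have hsum : ∑ b : β, (if χ ∈ blk b then Gt b χ else 0) = Gt b₀ χ := by
        rw [Finset.sum_eq_single b₀]
        · rw [if_pos hχb₀]
        · intro b _ hb
          rw [if_neg]
          intro hχb
          apply hb
          apply hinj
          rw [isPBlock_eq_blockOf hMp (hblk b).1 hχb, hb₀]
        · intro hb
          exact absurd (Finset.mem_univ _) hb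
      rw [hsum, hGt]
      have hdvdχ := (block_facts p hM D S (blk b₀) (hblk b₀).1 (hblk b₀).2).1 χ hχb₀
      rw [← ha, ← hd, ← he] at hdvdχ
      have h1 : (χ : G → ℂ) 1
          = ((p ^ e : ℕ) : ℂ) * ((charDegree (χ : G → ℂ) / p ^ e : ℕ) : ℂ) := by
        rw [← Nat.cast_mul, Nat.mul_div_cancel' hdvdχ]
        exact (Cfsg.Agent.Lib.CT.Wedderburn.char_natCast_charDegree
          (Cfsg.Agent.Lib.CT.Wedderburn.isCharacter_of_irr χ.2)).symm
      have hχ1 : (χ : G → ℂ) 1 ≠ 0 := Cfsg.Agent.Lib.Helper77.CentralChar.irr_one_ne_zero χ.2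
      have hw0 : ((charDegree (χ : G → ℂ) / p ^ e : ℕ) : ℂ) ≠ 0 := by
        intro h0
        rw [h0, mul_zero] at h1
        exact hχ1 h1
      have h2 : conj ((χ : G → ℂ) h)
          = (uu⁻¹ * ((charDegree (χ : G → ℂ) / p ^ e : ℕ) : ℂ))
            * centralChar (χ : G → ℂ) h⁻¹ := by
        rw [hconj]
        unfold centralChar
        rw [Cfsg.Agent.Lib.Helper75.RealBlock.centralizer_inv, huu, h1]
        field_simp
      have hsb := sameBlock_of_mem hMp (hblk b₀).1 hχb₀ (hrep b₀)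
      have h3 : MemLocalIdeal M
          (centralChar (χ : G → ℂ) g * centralChar (χ : G → ℂ) h⁻¹
            - centralChar (rep b₀ : G → ℂ) g * centralChar (rep b₀ : G → ℂ) h⁻¹) :=
        memLocalIdeal_mul_sub_mul hMp (hωR χ g) (hωR (rep b₀) h⁻¹) (hsb g) (hsb h⁻¹)
      have h4 : (Cfsg.Agent.Lib.Helper82.BlockDim.zz p S χ : ℂ)
            * (centralChar (χ : G → ℂ) g * conj ((χ : G → ℂ) h))
          - (Cfsg.Agent.Lib.Helper82.BlockDim.zz p S χ : ℂ)
            * ((charDegree (χ : G → ℂ) / p ^ e : ℕ) : ℂ)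
            * (uu⁻¹ * (centralChar (rep b₀ : G → ℂ) g * centralChar (rep b₀ : G → ℂ) h⁻¹))
          = ((Cfsg.Agent.Lib.Helper82.BlockDim.zz p S χ : ℂ)
              * ((charDegree (χ : G → ℂ) / p ^ e : ℕ) : ℂ) * uu⁻¹)
            * (centralChar (χ : G → ℂ) g * centralChar (χ : G → ℂ) h⁻¹
              - centralChar (rep b₀ : G → ℂ) g * centralChar (rep b₀ : G → ℂ) h⁻¹) := by
        rw [h2]
        ring
      rw [h4]
      exact memLocalIdeal_mul_left hMp (memLocalRing_mul hMp (memLocalRing_mul hMp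
        (memLocalRing_natCast hMp _) (memLocalRing_natCast hMp _)) huuinv) h3
    · have hsum : ∑ b : β, (if χ ∈ blk b then Gt b χ else 0) = 0 := by
        apply Finset.sum_eq_zero
        intro b _
        rw [if_neg]
        intro hχb
        apply hdef
        rw [← isPBlock_eq_blockOf hMp (hblk b).1 hχb]
        exact (hblk b).2
      rw [hsum, sub_zero]
      apply memLocalIdeal_mul_left hMp (memLocalRing_natCast hMp _)
      rcases lt_trichotomy ((charDegree (χ : G → ℂ)).factorization p) e with hlt | heq | hgt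
      · exact memLocalIdeal_mul_right hMp
          (Cfsg.Agent.Lib.Helper75.SepClasses.centralChar_mem_of_lt hM χ g
            (by rw [hig]; exact hlt)) (hcR χ h)
      · by_cases hω : MemLocalIdeal M (centralChar (χ : G → ℂ) g)
        · exact memLocalIdeal_mul_right hMp hω (hcR χ h)
        · exfalso
          apply hdef
          exact Cfsg.Agent.Lib.Helper75.SepClasses.isDefectGroup_of p hM χ g D
            (exists_sylow_of_isSylIn hg.2) hω (by rw [hig]; exact heq)
      · exact memLocalIdeal_mul_left hMp (hωR χ g)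
          (Cfsg.Agent.Lib.Helper75.SepClasses.conj_mem_of_gt hM χ h (by rw [hih]; exact hgt))
  have hsumJ : MemLocalIdeal M
      (A - ∑ χ : IrrCharacter G, ∑ b : β, if χ ∈ blk b then Gt b χ else 0) := by
    rw [hA, ← Finset.sum_sub_distrib]
    exact memLocalIdeal_sum hMp _ _ fun χ _ => hclaim χ
  have hregroup : ∑ χ : IrrCharacter G, ∑ b : β, (if χ ∈ blk b then Gt b χ else 0)
      = ∑ b : β, (tt p S D (blk b) : ℂ)
          * (uu⁻¹ * (centralChar (rep b : G → ℂ) g * centralChar (rep b : G → ℂ) h⁻¹)) := by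
    rw [Finset.sum_comm]
    refine Finset.sum_congr rfl fun b _ => ?_
    rw [← Finset.sum_filter, hGt]
    unfold tt
    rw [← ha, ← hd, ← he, Nat.cast_sum, Finset.sum_mul]
    refine Finset.sum_congr rfl fun χ _ => ?_
    rw [Nat.cast_mul]
  rw [hregroup] at hsumJ
  have hfinal := memLocalIdeal_mul_left hMp hccinv hsumJ
  have heq : cc⁻¹ * (A - ∑ b : β, (tt p S D (blk b) : ℂ)
        * (uu⁻¹ * (centralChar (rep b : G → ℂ) g * centralChar (rep b : G → ℂ) h⁻¹)))
      = cc⁻¹ * A - ∑ b : β, (tt p S D (blk b) : ℂ) * (((p ^ a : ℕ) : ℂ) / (Nat.card G : ℂ))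
          * centralChar (rep b : G → ℂ) g * centralChar (rep b : G → ℂ) h⁻¹ := by
    rw [mul_sub, Finset.mul_sum, ← hccuu]
    congr 1
    refine Finset.sum_congr rfl fun b _ => ?_
    ring
  rw [heq] at hfinal
  exact hfinal

/-! ### Robinson's theorem -/

/-- **Robinson**: for a normal `p`-subgroup `D`, the number of `p`-blocks with defect group `D`
is the rank over `ZMod p` of the matrix `(#{(y, z) ∈ K_i × K_j : z y⁻¹ ∈ S} / p^(a-d))` indexed
by the `p`-regular classes whose centralizers have Sylow `p`-subgroup `D`. -/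
theorem robinson [Finite G] (p : ℕ) [Fact p.Prime] (M : Ideal AlgInt) (hM : IsPModular p M)
    (D : Subgroup G) [D.Normal] (S : Sylow p G) {ι : Type*} [Fintype ι] [DecidableEq ι]
    (K : ι → ConjClasses G) (hKinj : Function.Injective K)
    (hK : ∀ C : ConjClasses G, (∃ i, K i = C) ↔ ∃ x ∈ C.carrier, ¬ p ∣ orderOf x ∧
      ∃ Q : Sylow p (Subgroup.centralizer ({x} : Set G)),
        (Q : Subgroup (Subgroup.centralizer ({x} : Set G))).map
          (Subgroup.centralizer ({x} : Set G)).subtype = D) :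
    Nat.card {B : Set (IrrCharacter G) // IsPBlock M B ∧ IsDefectGroup p M B D}
      = (Matrix.of fun i j : ι =>
          ((Nat.card {yz : G × G // yz.1 ∈ (K i).carrier ∧ yz.2 ∈ (K j).carrier ∧
              yz.2 * yz.1⁻¹ ∈ (S : Subgroup G)}
            / p ^ ((Nat.card G).factorization p - (Nat.card D).factorization p) : ℕ)
            : ZMod p)).rank := by
  classical
  have hp : p.Prime := Fact.out
  have hMp := isPrime_of_isPModular hM
  have := Fintype.ofFinite G
  have := Cfsg.Agent.Lib.CT.Wedderburn.finite_irrCharacter G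
  have := Fintype.ofFinite (IrrCharacter G)
  have := Fintype.ofFinite (S : Subgroup G)
  have hK' : ∀ C : ConjClasses G, (∃ i, K i = C) ↔ ∃ x ∈ C.carrier, Good p D x := by
    intro C
    rw [hK C]
    constructor
    · rintro ⟨x, hx, hreg, Q, hQ⟩
      exact ⟨x, hx, hreg, isSylIn_iff.2 ⟨Q, hQ.symm⟩⟩
    · rintro ⟨x, hx, hreg, hsyl⟩
      obtain ⟨Q, hQ⟩ := exists_sylow_of_isSylIn hsyl
      exact ⟨x, hx, hreg, Q, hQ⟩
  haveI : Finite {B : Set (IrrCharacter G) // IsPBlock M B ∧ IsDefectGroup p M B D} :=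
    inferInstance
  letI : Fintype {B : Set (IrrCharacter G) // IsPBlock M B ∧ IsDefectGroup p M B D} :=
    Fintype.ofFinite _
  rw [Nat.card_eq_fintype_card]
  symm
  have hout : ∀ i, (K i).out ∈ (K i).carrier := fun i =>
    ConjClasses.mem_carrier_iff_mk_eq.2 (Quotient.out_eq _)
  have hgood : ∀ i, Good p D (K i).out := by
    intro i
    obtain ⟨x, hx, hgx⟩ := (hK' (K i)).1 ⟨i, rfl⟩
    exact good_of_isConj hgx ((mem_carrier_iff_isConj hx _).1 (hout i))
  obtain ⟨rep, hrep⟩ : ∃ rep : {B : Set (IrrCharacter G) // IsPBlock M B ∧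
      IsDefectGroup p M B D} → IrrCharacter G, ∀ b, rep b ∈ b.1 :=
    ⟨fun b => (isPBlock_nonempty hMp b.2.1).choose,
      fun b => (isPBlock_nonempty hMp b.2.1).choose_spec⟩
  have hrepiff : ∀ b b' : {B : Set (IrrCharacter G) // IsPBlock M B ∧ IsDefectGroup p M B D},
      rep b ∈ b'.1 ↔ b = b' := by
    intro b b'
    constructor
    · intro h
      apply Subtype.ext
      rw [isPBlock_eq_blockOf hMp b'.2.1 h, isPBlock_eq_blockOf hMp b.2.1 (hrep b)]
    · rintro rfl
      exact hrep b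
  have htt : ∀ b : {B : Set (IrrCharacter G) // IsPBlock M B ∧ IsDefectGroup p M B D},
      ¬ p ∣ tt p S D b.1 := fun b => (block_facts p hM D S b.1 b.2.1 b.2.2).2
  have htt0 : ∀ b : {B : Set (IrrCharacter G) // IsPBlock M B ∧ IsDefectGroup p M B D},
      ((tt p S D b.1 : ℕ) : ℂ) ≠ 0 := by
    intro b h0
    apply htt b
    rw [Nat.cast_eq_zero] at h0
    rw [h0]
    exact dvd_zero p
  have hpa0 : ((p ^ (Nat.card G).factorization p : ℕ) : ℂ) ≠ 0 :=
    Nat.cast_ne_zero.2 (pow_ne_zero _ hp.ne_zero)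
  have hG0 : (Nat.card G : ℂ) ≠ 0 := Nat.cast_ne_zero.2 Nat.card_pos.ne'
  have hκR : MemLocalRing M (((p ^ (Nat.card G).factorization p : ℕ) : ℂ) / (Nat.card G : ℂ)) :=
    Cfsg.Agent.Lib.Helper16.Defect.natCast_div_memLocalRing hM _ _ Nat.card_pos.ne' dvd_rfl
  have hκR' : MemLocalRing M ((Nat.card G : ℂ) / ((p ^ (Nat.card G).factorization p : ℕ) : ℂ)) := by
    apply Cfsg.Agent.Lib.Helper16.Defect.natCast_div_memLocalRing hM _ _
      (pow_ne_zero _ hp.ne_zero)
    rw [Nat.Prime.factorization_pow hp, Finsupp.single_eq_same]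
    exact Nat.ordProj_dvd _ p
  have hωR : ∀ (χ : IrrCharacter G) (x : G), MemLocalRing M (centralChar (χ : G → ℂ) x) :=
    fun χ x => memLocalRing_of_isIntegral hMp
      (Cfsg.Agent.Lib.Helper80.Integrality.isIntegral_centralChar χ x)
  refine Cfsg.Agent.Lib.Helper75.RankExt.rank_of_cong hM
    (fun i j => Nat.card {yz : G × G // yz.1 ∈ (K i).carrier ∧ yz.2 ∈ (K j).carrier ∧
        yz.2 * yz.1⁻¹ ∈ (S : Subgroup G)}
      / p ^ ((Nat.card G).factorization p - (Nat.card D).factorization p))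
    (fun b i => (tt p S D b.1 : ℂ)
      * (((p ^ (Nat.card G).factorization p : ℕ) : ℂ) / (Nat.card G : ℂ))
      * centralChar (rep b : G → ℂ) (K i).out)
    (fun b j => centralChar (rep b : G → ℂ) (K j).out⁻¹)
    (fun j b => blockCoeff b.1 (K j).out⁻¹)
    (fun i b => (Nat.card G : ℂ) / ((p ^ (Nat.card G).factorization p : ℕ) : ℂ)
      * ((tt p S D b.1 : ℕ) : ℂ)⁻¹ * blockCoeff b.1 (K i).out)
    ?_ ?_ ?_ ?_ ?_ ?_ ?_
  · intro b i
    exact memLocalRing_mul hMp (memLocalRing_mul hMp (memLocalRing_natCast hMp _) hκR) (hωR _ _)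
  · intro b j
    exact hωR _ _
  · intro j b
    exact Cfsg.Agent.Lib.Helper77.BlockIdem.blockCoeff_memLocalRing p M hM b.1 b.2.1 _
  · intro i b
    exact memLocalRing_mul hMp (memLocalRing_mul hMp hκR'
      (Cfsg.Agent.Lib.CT.DefectZeroBlock.memLocalRing_inv_natCast hM (htt b)))
      (Cfsg.Agent.Lib.Helper77.BlockIdem.blockCoeff_memLocalRing p M hM b.1 b.2.1 _)
  · intro i j
    have hN := count_formula (S : Subgroup G) (Cfsg.Agent.Lib.Helper82.BlockDim.zz p S)
      (p ^ (Nat.card G).factorization p) (Cfsg.Agent.Lib.Helper82.BlockDim.zz_spec p S)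
      (K i) (K j) (K i).out (K j).out (hout i) (hout j)
    exact (main_cong p hM D S (fun b : {B : Set (IrrCharacter G) // IsPBlock M B ∧
        IsDefectGroup p M B D} => b.1) (fun b => b.2) Subtype.val_injective
      (fun B h1 h2 => ⟨⟨B, h1, h2⟩, rfl⟩) rep hrep (K i).out (K j).out (hgood i) (hgood j) _
      hN).2
  · intro b b'
    have h := (sum_omega_coeff p hM D K hKinj hK' b.1 b'.1 b.2.1 b'.2.1 b.2.2 b'.2.2 (rep b)
      (hrep b)).2
    by_cases hbb : b = b'
    · rw [if_pos hbb]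
      rw [if_pos ((hrepiff b b').2 hbb)] at h
      exact h
    · rw [if_neg hbb]
      rw [if_neg (fun hh => hbb ((hrepiff b b').1 hh))] at h
      exact h
  · intro b b'
    have h := (sum_omega_coeff p hM D K hKinj hK' b.1 b'.1 b.2.1 b'.2.1 b.2.2 b'.2.2 (rep b)
      (hrep b)).1
    have hsum : ∑ i, (tt p S D b.1 : ℂ)
          * (((p ^ (Nat.card G).factorization p : ℕ) : ℂ) / (Nat.card G : ℂ))
          * centralChar (rep b : G → ℂ) (K i).out
          * ((Nat.card G : ℂ) / ((p ^ (Nat.card G).factorization p : ℕ) : ℂ)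
            * ((tt p S D b'.1 : ℕ) : ℂ)⁻¹ * blockCoeff b'.1 (K i).out)
        = ((tt p S D b.1 : ℂ) * ((tt p S D b'.1 : ℕ) : ℂ)⁻¹)
          * ∑ i, centralChar (rep b : G → ℂ) (K i).out * blockCoeff b'.1 (K i).out := by
      rw [Finset.mul_sum]
      refine Finset.sum_congr rfl fun i _ => ?_
      field_simp
    rw [hsum]
    by_cases hbb : b = b'
    · rw [if_pos hbb]
      rw [if_pos ((hrepiff b b').2 hbb)] at h
      subst hbb
      rw [mul_inv_cancel₀ (htt0 b), one_mul]
      exact h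
    · rw [if_neg hbb, sub_zero]
      rw [if_neg (fun hh => hbb ((hrepiff b b').1 hh)), sub_zero] at h
      exact memLocalIdeal_mul_left hMp (memLocalRing_mul hMp (memLocalRing_natCast hMp _)
        (Cfsg.Agent.Lib.CT.DefectZeroBlock.memLocalRing_inv_natCast hM (htt b'))) h

end Cfsg.Agent.Lib.Helper75.Robinson
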