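import Mathlib
import Cfsg.Agent.Lib.Helper75.BlockRed

/-!
# Lifting generators of a block from the residue field (Nakayama)

* `card_mul_blockCoeff_one`: `|G| e_X(1)` is the sum of the squares of the degrees in `X`;
* `degree_le`: if the reduced block algebra `ē F[G]` is generated over its centre by `n ^ 2`
  elements, then every character of the block has degree at most `n`.
-/

set_option autoImplicit false
set_option linter.style.haveILetI false
set_option linter.unusedSectionVars false

namespace Cfsg.Agent.Lib.Helper75.BlockLift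

open Cfsg Cfsg.Agent.Lib.Helper77.LocalRing Cfsg.Agent.Lib.Helper77.CentralChar
  Cfsg.Agent.Lib.Helper77.ClassSum Cfsg.Agent.Lib.Helper77.BlockIdem
  Cfsg.Agent.Lib.CT.Wedderburn Cfsg.Agent.Lib.Helper75.GrpAlg
  Cfsg.Agent.Lib.Helper75.TwoChar Cfsg.Agent.Lib.Helper75.BlockAlg
  Cfsg.Agent.Lib.Helper75.BlockRed
open scoped ComplexConjugate

universe u
variable {G : Type u} [Group G] {M : Ideal AlgInt}

theorem card_mul_blockCoeff_one [Finite G] (X : Set (IrrCharacter G)) [Fintype X] :
    (Nat.card G : ℂ) * blockCoeff X 1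
      = ((∑ χ ∈ X.toFinset, charDegree (χ : G → ℂ) * charDegree (χ : G → ℂ) : ℕ) : ℂ) := by
  have hGne : (Nat.card G : ℂ) ≠ 0 := Nat.cast_ne_zero.mpr Nat.card_pos.ne'
  unfold blockCoeff
  rw [← mul_assoc, mul_inv_cancel₀ hGne, one_mul, finsum_mem_eq_toFinset_sum]
  push_cast
  refine Finset.sum_congr rfl fun χ _ => ?_
  rw [← char_natCast_charDegree (isCharacter_of_irr χ.2), Complex.conj_natCast]

theorem degree_le [Fintype G] (hMp : M.IsPrime) {F : Type*} [Field F]
    (q : localSubring M hMp →+* F)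
    (hq0 : ∀ x : localSubring M hMp, q x = 0 ↔ MemLocalIdeal M (x : ℂ))
    (hqs : Function.Surjective q) (B : Set (IrrCharacter G))
    (ê : MonoidAlgebra (localSubring M hMp) G) (hê : incl hMp ê = blockIdem B)
    (n : ℕ) (a : Fin n × Fin n → MonoidAlgebra F G)
    (hgen : ∀ x : MonoidAlgebra F G, ∃ w : Fin n × Fin n → MonoidAlgebra F G,
      (∀ i y, w i * y = y * w i) ∧ MonoidAlgebra.mapRingHom G q ê * x = ∑ i, w i * a i)
    (χ : IrrCharacter G) (hχ : χ ∈ B) : charDegree (χ : G → ℂ) ≤ n := by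
  classical
  obtain ⟨ρ, hρ⟩ : ∃ ρ : MonoidAlgebra (localSubring M hMp) G →+* MonoidAlgebra F G,
      ρ = MonoidAlgebra.mapRingHom G q := ⟨_, rfl⟩
  rw [← hρ] at hgen
  have hρs : ∀ g : G, ρ (MonoidAlgebra.single g 1) = MonoidAlgebra.single g 1 := by
    intro g
    rw [hρ]
    exact mapRingHom_single_one q g
  have hρc : ∀ (x : MonoidAlgebra (localSubring M hMp) G) (g : G),
      (ρ x).coeff g = q (x.coeff g) := by
    intro x g
    rw [hρ, MonoidAlgebra.coeff_mapRingHom]
  have hinj := incl_injective (G := G) hMp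
  have hec : blockIdem B ∈ Zc G := blockIdem_mem_center B
  have hee : blockIdem B * blockIdem B = blockIdem B :=
    Cfsg.Agent.Lib.Helper17.BrBridge.blockIdem_mul_self B
  have h1 : ê * ê = ê := hinj (by rw [map_mul, hê, hee])
  have h4 : ∀ g : G, ê * MonoidAlgebra.single g 1 = MonoidAlgebra.single g 1 * ê := by
    intro g
    apply hinj
    rw [map_mul, map_mul, hê, incl_single_one]
    exact ((Subalgebra.mem_center_iff.1 hec) _).symm
  -- a section of `q` and coefficientwise lifts
  obtain ⟨σ, hσ⟩ : ∃ σ : F → localSubring M hMp, ∀ c, q (σ c) = c :=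
    ⟨Function.surjInv hqs, Function.surjInv_eq hqs⟩
  obtain ⟨lf, hlf⟩ : ∃ lf : MonoidAlgebra F G → MonoidAlgebra (localSubring M hMp) G,
      ∀ x g, (lf x).coeff g = σ (x.coeff g) :=
    ⟨fun x => MonoidAlgebra.ofCoeff (Finsupp.equivFunOnFinite.symm fun g => σ (x.coeff g)),
      fun x g => rfl⟩
  have hρlf : ∀ x, ρ (lf x) = x := by
    intro x
    apply MonoidAlgebra.ext
    ext g
    rw [hρc, hlf, hσ]
  have hlfc : ∀ x : MonoidAlgebra F G, (∀ y, x * y = y * x) → ∀ y, lf x * y = y * lf x := by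
    intro x hx
    apply central_of_class
    intro b g
    rw [hlf, hlf, coeff_conj_of_central x hx]
  -- the two lattices
  obtain ⟨𝒩, h𝒩⟩ : ∃ 𝒩 : Submodule (localSubring M hMp) (MonoidAlgebra (localSubring M hMp) G),
      𝒩 = Submodule.span (localSubring M hMp) (Set.range fun g : G =>
        MonoidAlgebra.single g (1 : localSubring M hMp) * ê) := ⟨_, rfl⟩
  obtain ⟨N', hN'⟩ : ∃ N' : Submodule (localSubring M hMp) (MonoidAlgebra (localSubring M hMp) G),
      N' = Submodule.span (localSubring M hMp) {y | ∃ (ŵ : MonoidAlgebra (localSubring M hMp) G)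
        (i : Fin n × Fin n), (∀ z, ŵ * z = z * ŵ) ∧ y = ŵ * (lf (a i) * ê)} := ⟨_, rfl⟩
  have hfg : 𝒩.FG := by
    rw [h𝒩]
    exact Submodule.fg_span (Set.finite_range _)
  have hjac : RingHom.ker q ≤ Ideal.jacobson (⊥ : Ideal (localSubring M hMp)) := by
    intro x hx
    rw [Ideal.mem_jacobson_bot]
    intro y
    have hz : ¬ MemLocalIdeal M (((x * y + 1 : localSubring M hMp)) : ℂ) := by
      rw [← hq0, map_add, map_mul, (RingHom.mem_ker).1 hx, zero_mul, zero_add, map_one]
      exact one_ne_zero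
    have hz0 : (((x * y + 1 : localSubring M hMp)) : ℂ) ≠ 0 := by
      intro h0
      rw [h0] at hz
      exact hz (memLocalIdeal_zero hMp)
    exact isUnit_iff_exists_inv.2
      ⟨⟨(((x * y + 1 : localSubring M hMp)) : ℂ)⁻¹, memLocalRing_inv (x * y + 1).2 hz⟩,
        Subtype.ext (mul_inv_cancel₀ hz0)⟩
  have hNN : 𝒩 ≤ N' ⊔ RingHom.ker q • 𝒩 := by
    rw [h𝒩]
    apply Submodule.span_le.2
    rintro _ ⟨g, rfl⟩
    rw [← h𝒩]
    obtain ⟨w, hwc, hw⟩ := hgen (MonoidAlgebra.single g 1)
    obtain ⟨y, hy⟩ : ∃ y : MonoidAlgebra (localSubring M hMp) G,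
        y = MonoidAlgebra.single g 1 * ê - ∑ i, lf (w i) * (lf (a i) * ê) := ⟨_, rfl⟩
    have hρy : ρ y = 0 := by
      rw [hy, map_sub, map_sum]
      have h2 : ∀ i, ρ (lf (w i) * (lf (a i) * ê)) = w i * a i * ρ ê := by
        intro i
        rw [map_mul, map_mul, hρlf, hρlf, mul_assoc]
      rw [Finset.sum_congr rfl (fun i _ => h2 i), ← Finset.sum_mul, ← hw, ← hρs g, ← map_mul,
        ← map_mul, h4 g, mul_assoc, h1, sub_self]
    have hyê : y * ê = y := by
      rw [hy, sub_mul, Finset.sum_mul, mul_assoc, h1]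
      congr 1
      refine Finset.sum_congr rfl fun i _ => ?_
      rw [mul_assoc, mul_assoc, h1]
    have hymem : y ∈ RingHom.ker q • 𝒩 := by
      have h6 : y = ∑ h, y.coeff h • (MonoidAlgebra.single h 1 * ê) := by
        calc y = y * ê := hyê.symm
          _ = (∑ h, y.coeff h • MonoidAlgebra.single h (1 : localSubring M hMp)) * ê := by
            rw [← eq_sum_single y]
          _ = _ := by
            rw [Finset.sum_mul]
            exact Finset.sum_congr rfl fun h _ => smul_mul_assoc _ _ _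
      rw [h6]
      refine Submodule.sum_mem _ fun h _ => ?_
      refine Submodule.smul_mem_smul ?_ ?_
      · rw [RingHom.mem_ker, ← hρc, hρy]
        rfl
      · rw [h𝒩]
        exact Submodule.subset_span ⟨h, rfl⟩
    have hsum : ∑ i, lf (w i) * (lf (a i) * ê) ∈ N' := by
      rw [hN']
      refine Submodule.sum_mem _ fun i _ => ?_
      exact Submodule.subset_span ⟨lf (w i), i, hlfc _ (hwc i), rfl⟩
    have hdec : MonoidAlgebra.single g 1 * ê = ∑ i, lf (w i) * (lf (a i) * ê) + y := by
      rw [hy]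
      abel
    show MonoidAlgebra.single g 1 * ê ∈ N' ⊔ RingHom.ker q • 𝒩
    rw [hdec]
    exact Submodule.add_mem_sup hsum hymem
  have hle : 𝒩 ≤ N' := Submodule.le_of_le_smul_of_le_jacobson_bot hfg hjac hNN
  -- the complex side
  obtain ⟨eχ, heχ⟩ : ∃ eχ, eχ = blockIdem ({χ} : Set (IrrCharacter G)) := ⟨_, rfl⟩
  have heχc : eχ ∈ Zc G := heχ ▸ blockIdem_mem_center _
  have hωχ : ∀ ψ : IrrCharacter G, omega (ψ : G → ℂ) eχ = if ψ = χ then 1 else 0 := by
    intro ψ
    rw [heχ, omega_blockIdem]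
    by_cases h : ψ = χ
    · rw [if_pos h, if_pos (Set.mem_singleton_iff.2 h)]
    · rw [if_neg h, if_neg (fun h' => h (Set.mem_singleton_iff.1 h'))]
  have hkey : ∀ z ∈ Zc G, eχ * z = omega (χ : G → ℂ) z • eχ := by
    intro z hz
    apply eq_of_omega_eq _ _ (Subalgebra.mul_mem _ heχc hz) (Subalgebra.smul_mem _ heχc _)
    intro ψ
    rw [omega_mul ψ.2 eχ z heχc, omega_smul, hωχ]
    by_cases h : ψ = χ
    · rw [if_pos h, h, one_mul, mul_one]
    · rw [if_neg h, zero_mul, mul_zero]
  have heχe : eχ * blockIdem B = eχ := by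
    rw [hkey _ hec, omega_blockIdem, if_pos hχ, one_smul]
  obtain ⟨V, hV⟩ : ∃ V : Submodule ℂ (MonoidAlgebra ℂ G),
      V = Submodule.span ℂ (Set.range fun i : Fin n × Fin n =>
        eχ * incl hMp (lf (a i) * ê)) := ⟨_, rfl⟩
  have hN'V : ∀ y ∈ N', eχ * incl hMp y ∈ V := by
    intro y hy
    rw [hN'] at hy
    induction hy using Submodule.span_induction with
    | mem y hy =>
      obtain ⟨ŵ, i, hŵ, rfl⟩ := hy
      have hŵc : incl hMp ŵ ∈ Zc G := by
        rw [Subalgebra.mem_center_iff]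
        intro b
        refine (central_of_comm_single (incl hMp ŵ) (fun g => ?_) b).symm
        rw [← incl_single_one hMp g, ← map_mul, ← map_mul, hŵ]
      rw [map_mul, ← mul_assoc, hkey _ hŵc, smul_mul_assoc]
      refine Submodule.smul_mem _ _ ?_
      rw [hV]
      exact Submodule.subset_span ⟨i, rfl⟩
    | zero =>
      rw [map_zero, mul_zero]
      exact Submodule.zero_mem _
    | add y y' _ _ h2 h3 =>
      rw [map_add, mul_add]
      exact Submodule.add_mem _ h2 h3
    | smul s y _ h2 =>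
      rw [incl_smul, mul_smul_comm]
      exact Submodule.smul_mem _ _ h2
  have hsingle : ∀ g : G, eχ * MonoidAlgebra.single g 1 ∈ V := by
    intro g
    have h2 : MonoidAlgebra.single g 1 * ê ∈ N' := hle (by
      rw [h𝒩]
      exact Submodule.subset_span ⟨g, rfl⟩)
    have h3 := hN'V _ h2
    rw [map_mul, hê, incl_single_one,
      (Subalgebra.mem_center_iff.1 hec) (MonoidAlgebra.single g 1), ← mul_assoc, heχe] at h3
    exact h3
  have hrange : LinearMap.range (LinearMap.mulLeft ℂ eχ) ≤ V := by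
    rintro _ ⟨x, rfl⟩
    rw [LinearMap.mulLeft_apply]
    have h6 : eχ * x = ∑ g, x.coeff g • (eχ * MonoidAlgebra.single g 1) := by
      calc eχ * x = eχ * ∑ g, x.coeff g • MonoidAlgebra.single g (1 : ℂ) := by
            rw [← eq_sum_single x]
        _ = _ := by
            rw [Finset.mul_sum]
            exact Finset.sum_congr rfl fun g _ => mul_smul_comm _ _ _
    rw [h6]
    refine Submodule.sum_mem _ fun g _ => ?_
    exact Submodule.smul_mem _ _ (hsingle g)
  have hdimV : Module.finrank ℂ ↥V ≤ n * n := by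
    rw [hV]
    have h2 := finrank_range_le_card (R := ℂ)
      (fun i : Fin n × Fin n => eχ * incl hMp (lf (a i) * ê))
    rw [Fintype.card_prod, Fintype.card_fin] at h2
    exact h2
  have hid : MonoidAlgebra.mapRingHom G (RingHom.id ℂ) eχ = eχ := by
    apply MonoidAlgebra.ext
    ext g
    rw [MonoidAlgebra.coeff_mapRingHom]
    rfl
  have hdimχ : Module.finrank ℂ ↥(LinearMap.range (LinearMap.mulLeft ℂ eχ))
      = charDegree (χ : G → ℂ) * charDegree (χ : G → ℂ) := by
    have h2 := finrank_of_idem (G := G) (RingHom.id ℂ) Function.injective_id (RingHom.id ℂ) eχ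
      (by rw [heχ]; exact Cfsg.Agent.Lib.Helper17.BrBridge.blockIdem_mul_self _)
      (charDegree (χ : G → ℂ) * charDegree (χ : G → ℂ)) (by
        rw [hid, heχ, coeff_blockIdem, card_mul_blockCoeff_one, Set.toFinset_singleton,
          Finset.sum_singleton])
    rw [hid] at h2
    exact h2
  have h5 := Submodule.finrank_mono hrange
  rw [hdimχ] at h5
  exact Nat.mul_self_le_mul_self_iff.1 (h5.trans hdimV)

end Cfsg.Agent.Lib.Helper75.BlockLift
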