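import Mathlib
import Cfsg.Agent.Lib.Helper75.DCStmt
import Cfsg.Agent.S4717

/-!
# Piece CB of S4719: the involutions of `E` have bounded centralizers
-/

set_option autoImplicit false

namespace Cfsg.Agent.Lib.Helper75.DCCB

open Cfsg Cfsg.Agent.Lib.Helper75.DCStmt

universe u

theorem main (hDQ : DQ.{u}) : CB.{u} := by
  intro r a Nf hNf G _ _ M P hM hP hDC E hEP hEc hE2 hEcard x hxE hx1
  have : Fact (Nat.Prime 2) := ⟨Nat.prime_two⟩
  have hord : orderOf x = 2 := orderOf_eq_prime (by rw [pow_two]; exact hE2 x hxE) hx1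
  have hDCX : DC M ↥(Subgroup.centralizer ({x} : Set G)) (r + 1) :=
    (Cfsg.Agent.S4717.result 2 M hM (r + 1)).1 hDC x ⟨1, by rw [hord, pow_one]⟩
  have hxX : x ∈ Subgroup.centralizer ({x} : Set G) := by
    rw [Subgroup.mem_centralizer_iff]
    intro h hh
    rw [Set.mem_singleton_iff] at hh
    rw [hh]
  set X := Subgroup.centralizer ({x} : Set G) with hX
  set e : ↥X := ⟨x, hxX⟩ with he
  have hecent : e ∈ Subgroup.center ↥X := by
    rw [Subgroup.mem_center_iff]
    intro g
    have hg : (g : G) ∈ Subgroup.centralizer ({x} : Set G) := g.2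
    rw [Subgroup.mem_centralizer_iff] at hg
    have := hg x (Set.mem_singleton x)
    exact Subtype.ext this.symm
  have hZc : Subgroup.zpowers e ≤ Subgroup.center ↥X := by
    rw [Subgroup.zpowers_le]; exact hecent
  have hZn : (Subgroup.zpowers e).Normal := by
    constructor
    intro n hn g
    have h1 := Subgroup.mem_center_iff.mp (hZc hn) g
    have h2 : g * n * g⁻¹ = n := by rw [h1, mul_inv_cancel_right]
    rw [h2]; exact hn
  have hZcard : Nat.card (Subgroup.zpowers e) = 2 := by
    rw [Nat.card_zpowers, he, Subgroup.orderOf_mk, hord]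
  have hDCq := hDQ ↥X M hM (Subgroup.zpowers e) hZc hZcard r hDCX
  -- the image of `E`
  have hEX : E ≤ X := by
    intro y hy
    rw [hX, Subgroup.mem_centralizer_iff]
    intro h hh
    rw [Set.mem_singleton_iff] at hh
    rw [hh]
    exact setLike_mul_comm hxE hy
  set Z := Subgroup.zpowers e with hZ
  set Ebar : Subgroup (↥X ⧸ Z) := (E.subgroupOf X).map (QuotientGroup.mk' Z) with hEbar
  have hZE : Z ≤ E.subgroupOf X := by
    rw [hZ, Subgroup.zpowers_le, Subgroup.mem_subgroupOf]
    exact hxE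
  have hcardX : Nat.card ↥X = Nat.card (↥X ⧸ Z) * 2 := by
    rw [← hZcard]; exact Subgroup.card_eq_card_quotient_mul_card_subgroup Z
  have hcomap : Ebar.comap (QuotientGroup.mk' Z) = E.subgroupOf X := by
    rw [hEbar, QuotientGroup.comap_map_mk']
    exact sup_eq_right.mpr hZE
  have hidx : Ebar.index = (E.subgroupOf X).index := by
    rw [← hcomap]
    exact (Subgroup.index_comap_of_surjective _ (QuotientGroup.mk'_surjective Z)).symm
  have hcardE' : Nat.card ↥(E.subgroupOf X) = 2 ^ (r + 2) := by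
    rw [← hEcard]
    exact Nat.card_congr (Subgroup.subgroupOfEquivOfLe hEX).toEquiv
  have hcardEbar : Nat.card ↥Ebar = 2 ^ (r + 1) := by
    have h1 := Subgroup.index_mul_card Ebar
    have h2 := Subgroup.index_mul_card (E.subgroupOf X)
    rw [hidx] at h1
    have h3 : (E.subgroupOf X).index ≠ 0 := Subgroup.index_ne_zero_of_finite
    have h4 : (E.subgroupOf X).index * Nat.card ↥(E.subgroupOf X)
        = (E.subgroupOf X).index * (Nat.card ↥Ebar * 2) := by
      rw [h2, hcardX, ← h1, mul_assoc]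
    have h5 := Nat.eq_of_mul_eq_mul_left (Nat.pos_of_ne_zero h3) h4
    rw [hcardE'] at h5
    have h6 : 2 ^ (r + 2) = 2 ^ (r + 1) * 2 := by ring
    omega
  have hEbar2 : IsPGroup 2 ↥Ebar := IsPGroup.of_card hcardEbar
  obtain ⟨Pbar, hPbar⟩ := hEbar2.exists_le_sylow
  have hPbarcard := Pbar.card_eq_multiplicity
  have hEbarsq : ∀ y ∈ Ebar, y * y = 1 := by
    intro y hy
    rw [hEbar, Subgroup.mem_map] at hy
    obtain ⟨t, ht, rfl⟩ := hy
    rw [Subgroup.mem_subgroupOf] at ht
    have h1 : t * t = 1 := Subtype.ext (hE2 _ ht)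
    rw [← map_mul, h1, map_one]
  have hbound := hNf _ (↥X ⧸ Z) M Pbar hM hPbarcard hDCq
    ⟨Ebar, hPbar, inferInstance, hEbarsq, hcardEbar⟩
  -- `a' < a`
  have hpos : Nat.card (↥X ⧸ Z) ≠ 0 := Nat.card_pos.ne'
  have hfac : (Nat.card ↥X).factorization 2 = (Nat.card (↥X ⧸ Z)).factorization 2 + 1 := by
    rw [hcardX, Nat.factorization_mul hpos (by norm_num)]
    simp [Nat.Prime.factorization_self Nat.prime_two]
  have hdvd : Nat.card ↥X ∣ Nat.card G := Subgroup.card_subgroup_dvd_card X
  have hGpos : Nat.card G ≠ 0 := Nat.card_pos.ne'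
  have hXpos : Nat.card ↥X ≠ 0 := Nat.card_pos.ne'
  have hle : (Nat.card ↥X).factorization 2 ≤ (Nat.card G).factorization 2 :=
    (Nat.factorization_le_iff_dvd hXpos hGpos).mpr hdvd 2
  have ha : (Nat.card G).factorization 2 = a := by
    have h1 := P.card_eq_multiplicity
    rw [hP] at h1
    exact (Nat.pow_right_injective (le_refl 2) h1).symm
  have hmem : (Nat.card (↥X ⧸ Z)).factorization 2 ∈ Finset.range a := by
    rw [Finset.mem_range]; omega
  have hsum := Finset.single_le_sum (f := Nf) (fun _ _ => Nat.zero_le _) hmem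
  rw [hcardX]
  omega

end Cfsg.Agent.Lib.Helper75.DCCB
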