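import Mathlib
import Cfsg.Agent.Lib.Helper75.DCStmt
import Cfsg.Agent.Lib.Helper16.Quot
import Cfsg.Agent.Lib.Helper16.QuotP
import Cfsg.Agent.Lib.Helper77.DefectClass
import Cfsg.Agent.Lib.Helper77.LocalRing
import Cfsg.Agent.Lib.Helper80.Integrality
import Cfsg.Agent.Lib.CT.DefectZeroBlock
import Cfsg.Agent.Lib.CT.Kernel
import Cfsg.Agent.Lib.CT.Ops

/-!
# Piece DQ of S4719: deficiency class drops in a central quotient of order 2
-/

set_option autoImplicit false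

namespace Cfsg.Agent.Lib.Helper75.DCDQ

open Cfsg Cfsg.Agent.Lib.Helper75.DCStmt Cfsg.Agent.Lib.Helper77.LocalRing

universe u

theorem main : DQ.{u} := by
  intro X _ _ M hM Z _ hZc hZcard r hDC Bbar hBbar hne
  have : Fact (Nat.Prime 2) := ⟨Nat.prime_two⟩
  have hMp := isPrime_of_isPModular hM
  obtain ⟨χbar, rfl⟩ := hBbar
  -- the inflation
  have hirr : IsIrrCharacter X ((χbar : X ⧸ Z → ℂ) ∘ (QuotientGroup.mk : X → X ⧸ Z)) :=
    Cfsg.Agent.Lib.CT.Kernel.isIrrCharacter_inflation (N := Z) χbar.2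
  set χ : IrrCharacter X := ⟨_, hirr⟩ with hχ
  have hZ2 : IsPGroup 2 Z := IsPGroup.of_card (n := 1) (by rw [hZcard, pow_one])
  have hidx : (Subgroup.centralizer (Z : Set X)).index = 2 ^ 0 := by
    have : Subgroup.centralizer (Z : Set X) = ⊤ := by
      rw [eq_top_iff]
      intro x _
      rw [Subgroup.mem_centralizer_iff]
      intro z hz
      exact (Subgroup.mem_center_iff.mp (hZc hz) x).symm
    rw [this, Subgroup.index_top, pow_zero]
  -- the block of the inflation is not principal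
  have hBne : blockOf M (χ : X → ℂ) ≠ principalBlock M X := by
    intro h
    apply hne
    have h1 : χ ∈ principalBlock M X := by
      rw [← h]; exact Cfsg.Agent.Lib.Helper77.DefectClass.self_mem_blockOf hMp χ
    have h2 : SameBlock M (fun _ : X => (1 : ℂ)) (χ : X → ℂ) := h1
    let one : IrrCharacter (X ⧸ Z) := ⟨fun _ => 1, Cfsg.Agent.Lib.CT.Ops.isIrrCharacter_one⟩
    have h3 : SameBlock M (one : X ⧸ Z → ℂ) (χbar : X ⧸ Z → ℂ) :=
      Cfsg.Agent.Lib.Helper16.QuotP.sameBlock_of_comp_mk_pGroup 2 hM Z hZ2 hidx one χbar h2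
    have h4 : χbar ∈ principalBlock M (X ⧸ Z) := h3
    have h5 : IsPBlock M (principalBlock M (X ⧸ Z)) := ⟨one, rfl⟩
    exact (Cfsg.Agent.Lib.CT.DefectZeroBlock.eq_blockOf_of_mem hMp h5 h4).symm
  have hdef := hDC _ ⟨χ, rfl⟩ hBne
  -- degrees
  have hcard : Nat.card X = Nat.card (X ⧸ Z) * 2 := by
    rw [← hZcard]; exact Subgroup.card_eq_card_quotient_mul_card_subgroup Z
  have hpos : Nat.card (X ⧸ Z) ≠ 0 := Nat.card_pos.ne'
  have hfac : (Nat.card X).factorization 2 = (Nat.card (X ⧸ Z)).factorization 2 + 1 := by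
    rw [hcard, Nat.factorization_mul hpos (by norm_num)]
    simp [Nat.Prime.factorization_self Nat.prime_two]
  have hmemb : χbar ∈ blockOf M (χbar : X ⧸ Z → ℂ) :=
    Cfsg.Agent.Lib.Helper77.DefectClass.self_mem_blockOf hMp χbar
  have hne1 : ((fun ψ : IrrCharacter (X ⧸ Z) =>
      (charDegree (ψ : X ⧸ Z → ℂ)).factorization 2) '' blockOf M (χbar : X ⧸ Z → ℂ)).Nonempty :=
    ⟨_, χbar, hmemb, rfl⟩
  have hinf_mem := Nat.sInf_mem hne1
  obtain ⟨ψbar, hψbar, hψeq⟩ := hinf_mem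
  -- the inflation of `ψbar` lies in the block of `χ`
  have hirrψ : IsIrrCharacter X ((ψbar : X ⧸ Z → ℂ) ∘ (QuotientGroup.mk : X → X ⧸ Z)) :=
    Cfsg.Agent.Lib.CT.Kernel.isIrrCharacter_inflation (N := Z) ψbar.2
  have hψmem : (⟨_, hirrψ⟩ : IrrCharacter X) ∈ blockOf M (χ : X → ℂ) :=
    Cfsg.Agent.Lib.Helper16.Quot.sameBlock_comp_mk hMp Z _ _ hψbar
  have hdeg : charDegree ((ψbar : X ⧸ Z → ℂ) ∘ (QuotientGroup.mk : X → X ⧸ Z))
      = charDegree (ψbar : X ⧸ Z → ℂ) := by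
    unfold charDegree
    simp
  have hle1 : sInf ((fun ψ : IrrCharacter X =>
      (charDegree (ψ : X → ℂ)).factorization 2) '' blockOf M (χ : X → ℂ))
      ≤ (charDegree (ψbar : X ⧸ Z → ℂ)).factorization 2 := by
    apply Nat.sInf_le
    exact ⟨_, hψmem, by show (charDegree _).factorization 2 = _; rw [hdeg]⟩
  have hle2 : (charDegree (ψbar : X ⧸ Z → ℂ)).factorization 2
      ≤ (Nat.card (X ⧸ Z)).factorization 2 := by
    have hd := Cfsg.Agent.Lib.Helper80.Integrality.charDegree_dvd_card ψbar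
    have hd0 : charDegree (ψbar : X ⧸ Z → ℂ) ≠ 0 := by
      intro h0; rw [h0] at hd; exact hpos (Nat.eq_zero_of_zero_dvd hd)
    exact (Nat.factorization_le_iff_dvd hd0 hpos).mpr hd 2
  have hψeq' : (charDegree (ψbar : X ⧸ Z → ℂ)).factorization 2 = sInf ((fun ψ : IrrCharacter (X ⧸ Z) =>
      (charDegree (ψ : X ⧸ Z → ℂ)).factorization 2) '' blockOf M (χbar : X ⧸ Z → ℂ)) := hψeq
  unfold blockDefect at hdef ⊢
  rw [hfac] at hdef
  rw [← hψeq']
  omega

end Cfsg.Agent.Lib.Helper75.DCDQ
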