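import Mathlib
import Cfsg.Agent.Lib.Helper77.ClassSum

/-!
# Landau's theorem

A finite group with at most `k` conjugacy classes has order bounded in terms of `k`:
`exists_bound` (a multiset of `k` positive integers whose reciprocals sum to a given positive
rational has bounded entries) and `card_le_of_card_conjClasses`.
-/

set_option autoImplicit false
set_option linter.style.haveILetI false

namespace Cfsg.Agent.Lib.Helper75.Landau

universe u

/-- Landau: the entries of a multiset of `k` positive integers whose reciprocals sum to `q` are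
bounded in terms of `k` and `q`. -/
theorem exists_bound (k : ℕ) : ∀ q : ℚ, 0 < q → ∃ N : ℕ, ∀ s : Multiset ℕ, Multiset.card s = k →
    (∀ n ∈ s, 0 < n) → (s.map fun n : ℕ => (1 : ℚ) / n).sum = q → ∀ n ∈ s, n ≤ N := by
  induction k with
  | zero =>
    intro q hq
    refine ⟨0, fun s hs _ hsum => ?_⟩
    rw [Multiset.card_eq_zero] at hs
    subst hs
    rw [Multiset.map_zero, Multiset.sum_zero] at hsum
    exact absurd hsum.symm hq.ne'
  | succ k ih =>
    intro q hq
    classical
    obtain ⟨m₀, hm₀⟩ : ∃ m₀ : ℕ, ((k + 1 : ℕ) : ℚ) / q ≤ m₀ := exists_nat_ge _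
    obtain ⟨F, hF⟩ : ∃ F : ℕ → ℕ, ∀ c : ℕ, 0 < q - 1 / (c : ℚ) → ∀ s : Multiset ℕ,
        Multiset.card s = k → (∀ n ∈ s, 0 < n) →
        (s.map fun n : ℕ => (1 : ℚ) / n).sum = q - 1 / (c : ℚ) → ∀ n ∈ s, n ≤ F c := by
      refine ⟨fun c => if h : 0 < q - 1 / (c : ℚ) then Classical.choose (ih _ h) else 0, ?_⟩
      intro c hc
      beta_reduce
      rw [dif_pos hc]
      exact Classical.choose_spec (ih _ hc)
    refine ⟨m₀ + ∑ c ∈ Finset.range (m₀ + 1), F c, fun s hs hpos hsum => ?_⟩
    have hne : s.toFinset.Nonempty := by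
      rw [Multiset.toFinset_nonempty]
      intro h
      rw [h] at hs
      simp at hs
    obtain ⟨c, hc, hmin⟩ := Finset.exists_min_image s.toFinset id hne
    rw [Multiset.mem_toFinset] at hc
    have hmin' : ∀ n ∈ s, c ≤ n := fun n hn => hmin n (Multiset.mem_toFinset.2 hn)
    have hcpos : 0 < c := hpos c hc
    have hcq : (0 : ℚ) < c := by exact_mod_cast hcpos
    have h1 : q ≤ ((k + 1 : ℕ) : ℚ) * (1 / (c : ℚ)) := by
      rw [← hsum]
      have h2 := Multiset.sum_le_card_nsmul (s.map fun n : ℕ => (1 : ℚ) / n) (1 / (c : ℚ)) (by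
        intro x hx
        rw [Multiset.mem_map] at hx
        obtain ⟨n, hn, rfl⟩ := hx
        have hnq : (0 : ℚ) < n := by exact_mod_cast hpos n hn
        have hcn : (c : ℚ) ≤ n := by exact_mod_cast hmin' n hn
        exact one_div_le_one_div_of_le hcq hcn)
      rw [Multiset.card_map, hs, nsmul_eq_mul] at h2
      exact h2
    have hc_le : c ≤ m₀ := by
      have h3 : (c : ℚ) ≤ ((k + 1 : ℕ) : ℚ) / q := by
        rw [le_div_iff₀ hq]
        have h4 : q * c ≤ ((k + 1 : ℕ) : ℚ) := by
          have h5 := mul_le_mul_of_nonneg_right h1 hcq.le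
          rw [mul_assoc, one_div, inv_mul_cancel₀ hcq.ne', mul_one] at h5
          exact h5
        linarith
      exact_mod_cast h3.trans hm₀
    obtain ⟨s', hs'⟩ := Multiset.exists_cons_of_mem hc
    subst hs'
    have hcard' : Multiset.card s' = k := by
      rw [Multiset.card_cons] at hs
      omega
    have hsum' : (s'.map fun n : ℕ => (1 : ℚ) / n).sum = q - 1 / (c : ℚ) := by
      rw [Multiset.map_cons, Multiset.sum_cons] at hsum
      linarith
    intro n hn
    rw [Multiset.mem_cons] at hn
    rcases hn with hn | hn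
    · rw [hn]
      exact hc_le.trans (Nat.le_add_right _ _)
    · have hpos' : 0 < q - 1 / (c : ℚ) := by
        rw [← hsum']
        have hnq : (0 : ℚ) < n := by exact_mod_cast hpos n (Multiset.mem_cons_of_mem hn)
        have h6 : (1 : ℚ) / n ≤ (s'.map fun n : ℕ => (1 : ℚ) / n).sum := by
          refine Multiset.single_le_sum ?_ _ (Multiset.mem_map_of_mem _ hn)
          intro x hx
          rw [Multiset.mem_map] at hx
          obtain ⟨m, hm, rfl⟩ := hx
          have hmq : (0 : ℚ) < m := by exact_mod_cast hpos m (Multiset.mem_cons_of_mem hm)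
          positivity
        have h7 : (0 : ℚ) < 1 / n := by positivity
        linarith
      have hb := hF c hpos' s' hcard' (fun m hm => hpos m (Multiset.mem_cons_of_mem hm)) hsum' n hn
      calc n ≤ F c := hb
        _ ≤ ∑ c ∈ Finset.range (m₀ + 1), F c :=
            Finset.single_le_sum (f := F) (fun _ _ => Nat.zero_le _)
              (Finset.mem_range.2 (by omega))
        _ ≤ m₀ + ∑ c ∈ Finset.range (m₀ + 1), F c := Nat.le_add_left _ _

/-- A representative of a conjugacy class lies in that class. -/
theorem mk_out {G : Type u} [Group G] (C : ConjClasses G) : ConjClasses.mk C.out = C :=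
  Quotient.out_eq C

/-- Landau: the order of a finite group is bounded in terms of its number of conjugacy
classes. -/
theorem card_le_of_card_conjClasses (k : ℕ) : ∃ N : ℕ, ∀ (G : Type u) [Group G] [Finite G],
    Nat.card (ConjClasses G) ≤ k → Nat.card G ≤ N := by
  classical
  choose F hF using fun j : ℕ => exists_bound j 1 one_pos
  refine ⟨∑ j ∈ Finset.range (k + 1), F j, ?_⟩
  intro G _ _ hk
  letI : Fintype G := Fintype.ofFinite G
  letI : Fintype (ConjClasses G) := Fintype.ofFinite _
  obtain ⟨f, hf⟩ : ∃ f : ConjClasses G → ℕ,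
      f = fun C => Nat.card (Subgroup.centralizer ({C.out} : Set G)) := ⟨_, rfl⟩
  obtain ⟨s, hs⟩ : ∃ s : Multiset ℕ, s = Finset.univ.val.map f := ⟨_, rfl⟩
  have hcard : Multiset.card s = Nat.card (ConjClasses G) := by
    rw [hs, Multiset.card_map, Finset.card_val, Finset.card_univ, Nat.card_eq_fintype_card]
  have hfpos : ∀ C, 0 < f C := by
    intro C
    rw [hf]
    exact Nat.card_pos
  have hpos : ∀ n ∈ s, 0 < n := by
    intro n hn
    rw [hs, Multiset.mem_map] at hn
    obtain ⟨C, _, rfl⟩ := hn
    exact hfpos C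
  have hG0 : (Nat.card G : ℚ) ≠ 0 := Nat.cast_ne_zero.2 Nat.card_pos.ne'
  have hsum : (s.map fun n : ℕ => (1 : ℚ) / n).sum = 1 := by
    rw [hs, Multiset.map_map]
    show ∑ C : ConjClasses G, (1 : ℚ) / (f C : ℚ) = 1
    have h1 : ∀ C : ConjClasses G, (1 : ℚ) / (f C : ℚ)
        = ((Finset.univ.filter (fun g : G => ConjClasses.mk g = C)).card : ℚ)
          / (Nat.card G : ℚ) := by
      intro C
      have h2 : (Finset.univ.filter (fun g : G => ConjClasses.mk g = C)).card
          = (Subgroup.centralizer ({C.out} : Set G)).index := by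
        rw [← Cfsg.Agent.Lib.Helper77.ClassSum.card_conj_eq_index C.out]
        congr 1
        ext x
        simp only [Finset.mem_filter, Finset.mem_univ, true_and]
        conv_lhs => rw [← mk_out C]
        rw [ConjClasses.mk_eq_mk_iff_isConj]
        exact isConj_comm
      rw [h2]
      have h3 := Subgroup.index_mul_card (Subgroup.centralizer ({C.out} : Set G))
      have hne : (f C : ℚ) ≠ 0 := Nat.cast_ne_zero.2 (hfpos C).ne'
      rw [div_eq_div_iff hne hG0, one_mul, ← h3, hf]
      push_cast
      ring
    rw [Finset.sum_congr rfl (fun C _ => h1 C), ← Finset.sum_div, ← Nat.cast_sum]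
    have h4 : ∑ C : ConjClasses G, (Finset.univ.filter (fun g : G => ConjClasses.mk g = C)).card
        = Nat.card G := by
      rw [← Finset.card_eq_sum_card_fiberwise (f := ConjClasses.mk) (s := Finset.univ)
        (t := Finset.univ) (fun _ _ => Finset.mem_univ _), Finset.card_univ,
        Nat.card_eq_fintype_card]
    rw [h4]
    exact div_self hG0
  have hmem : Nat.card G ∈ s := by
    rw [hs, Multiset.mem_map]
    refine ⟨ConjClasses.mk 1, Finset.mem_univ _, ?_⟩
    have h5 : (ConjClasses.mk (1 : G)).out = 1 := by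
      have h6 := mk_out (ConjClasses.mk (1 : G))
      rw [ConjClasses.mk_eq_mk_iff_isConj] at h6
      exact isConj_one_left.1 h6
    rw [hf]
    beta_reduce
    rw [h5]
    have h7 : Subgroup.centralizer ({(1 : G)} : Set G) = ⊤ := by
      ext g
      simp [Subgroup.mem_centralizer_iff]
    rw [h7, Subgroup.card_top]
  have hj : Nat.card (ConjClasses G) < k + 1 := by omega
  calc Nat.card G ≤ F (Nat.card (ConjClasses G)) := hF _ s hcard hpos hsum _ hmem
    _ ≤ ∑ j ∈ Finset.range (k + 1), F j :=
        Finset.single_le_sum (f := F) (fun _ _ => Nat.zero_le _) (Finset.mem_range.2 hj)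

end Cfsg.Agent.Lib.Helper75.Landau
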