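import Cfsg.Agent.Lib.Helper80.NormB0
import Cfsg.Agent.Lib.Helper82.Contrib
import Cfsg.Agent.Lib.Helper75.Section2
import Cfsg.Agent.Lib.Helper75.Landau

/-!
# Groups with a single `p`-block

If every irreducible character of `G` lies in the principal `p`-block, then `G` has at most
`p ^ (2 a)` irreducible characters, `p ^ a` the order of a Sylow `p`-subgroup (`card_irr_le`):
the contributions `p ^ a ⟨1⁰, ψ⟩` are nonzero integers whose squares sum to at most `p ^ (2 a)`.
With Landau's theorem the order of such a group is bounded (`exists_bound`).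
-/

set_option autoImplicit false
set_option linter.style.haveILetI false
open Cfsg

namespace Cfsg.Agent.Lib.Helper75.SingleBlock

open Cfsg.Agent.Lib.Helper82.Contrib Cfsg.Agent.Lib.CT.ThirdMain
open Cfsg.Agent.Lib.Helper77.CentralChar Cfsg.Agent.Lib.Helper77.LocalRing
open scoped ComplexConjugate

universe u

/-- A group all of whose irreducible characters lie in the principal `p`-block has at most
`p ^ (2 a)` irreducible characters. -/
theorem card_irr_le {G : Type u} [Group G] [Finite G] (p : ℕ) [Fact p.Prime] (M : Ideal AlgInt)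
    (hM : IsPModular p M) (h : ∀ χ : IrrCharacter G, χ ∈ principalBlock M G) :
    Nat.card (IrrCharacter G) ≤ p ^ (2 * (Nat.card G).factorization p) := by
  classical
  letI : Fintype G := Fintype.ofFinite G
  haveI : Finite (IrrCharacter G) := Cfsg.Agent.Lib.CT.Wedderburn.finite_irrCharacter G
  letI : Fintype (IrrCharacter G) := Fintype.ofFinite _
  have hpp : p.Prime := Fact.out
  have hMp : M.IsPrime := isPrime_of_isPModular hM
  obtain ⟨a, ha⟩ : ∃ a, a = (Nat.card G).factorization p := ⟨_, rfl⟩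
  rw [← ha]
  obtain ⟨δ, hδ⟩ : ∃ δ : G → ℂ, δ = fun g => (sReg p : MonoidAlgebra ℂ G).coeff g := ⟨_, rfl⟩
  have hδv : ∀ g, δ g = if p ∣ orderOf g then 0 else 1 := by
    intro g
    rw [hδ]
    exact coeff_sReg p g
  have hδcf : IsClassFunction G δ := by
    intro g x
    rw [hδv, hδv, orderOf_conj']
  have hpa : ((p ^ a : ℕ) : ℂ) ≠ 0 := Nat.cast_ne_zero.2 (pow_ne_zero _ hpp.ne_zero)
  have hG0 : (Nat.card G : ℂ) ≠ 0 := Nat.cast_ne_zero.2 Nat.card_pos.ne'
  have hctr : ∀ ψ : IrrCharacter G,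
      (ctr p (triv G) ψ : ℂ) = ((p ^ a : ℕ) : ℂ) * classInner δ (ψ : G → ℂ) := by
    intro ψ
    rw [← ctr_spec, ← ha]
    have h1 : tw p ((p ^ a : ℕ) : ℂ) ((triv G : IrrCharacter G) : G → ℂ)
        = ((p ^ a : ℕ) : ℂ) • δ := by
      funext g
      rw [tw_apply, coe_triv, Pi.smul_apply, hδv, smul_eq_mul]
      split_ifs <;> simp
    rw [h1, Cfsg.Agent.Lib.CT.Orth.classInner_smul_left]
  have hne : ∀ ψ : IrrCharacter G, ctr p (triv G) ψ ≠ 0 := by
    intro ψ h0
    have h1 := hctr ψ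
    rw [h0, Int.cast_zero] at h1
    have h2 : classInner δ (ψ : G → ℂ) = 0 := by
      rcases mul_eq_zero.1 h1.symm with h3 | h3
      · exact absurd h3 hpa
      · exact h3
    rw [hδ, Cfsg.Agent.Lib.Helper80.NormB0.classInner_indicator] at h2
    have h4 : pair (ψ : G → ℂ) (sReg p) = 0 := by
      rcases mul_eq_zero.1 h2 with h5 | h5
      · exact absurd h5 (inv_ne_zero hG0)
      · exact (map_eq_zero _).1 h5
    apply Cfsg.Agent.Lib.Helper80.NormB0.omega_sReg_not_mem hM ψ (h ψ)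
    unfold omega
    rw [h4, zero_div]
    exact memLocalIdeal_zero hMp
  -- Parseval
  have hpars := Cfsg.Agent.Lib.Helper75.Section2.classInner_eq_sum δ δ hδcf
  have hterm : ∀ ψ : IrrCharacter G,
      classInner δ (ψ : G → ℂ) * conj (classInner δ (ψ : G → ℂ))
        = ((ctr p (triv G) ψ ^ 2 : ℤ) : ℂ) / (((p ^ a : ℕ) : ℂ) ^ 2) := by
    intro ψ
    have h1 : classInner δ (ψ : G → ℂ) = (ctr p (triv G) ψ : ℂ) / ((p ^ a : ℕ) : ℂ) := by
      rw [hctr ψ, mul_div_cancel_left₀ _ hpa]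
    rw [h1, map_div₀, map_intCast, map_natCast]
    push_cast
    ring
  rw [Finset.sum_congr rfl (fun ψ _ => hterm ψ), ← Finset.sum_div] at hpars
  -- the norm of δ
  obtain ⟨m, hm, hmle⟩ : ∃ m : ℕ, classInner δ δ = (m : ℂ) / (Nat.card G : ℂ)
      ∧ m ≤ Nat.card G := by
    refine ⟨(Finset.univ.filter (fun g : G => ¬ p ∣ orderOf g)).card, ?_, ?_⟩
    · unfold classInner
      rw [inv_mul_eq_div]
      congr 1
      rw [Finset.card_filter, Nat.cast_sum]
      refine Finset.sum_congr rfl fun g _ => ?_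
      rw [hδv]
      split_ifs <;> simp
    · rw [Nat.card_eq_fintype_card]
      exact Finset.card_filter_le _ _
  rw [hm] at hpars
  -- clear denominators
  have hkey : (∑ ψ : IrrCharacter G, ctr p (triv G) ψ ^ 2) * (Nat.card G : ℤ)
      = (m : ℤ) * ((p ^ a : ℕ) : ℤ) ^ 2 := by
    have h1 : ((∑ ψ : IrrCharacter G, ctr p (triv G) ψ ^ 2 : ℤ) : ℂ) * (Nat.card G : ℂ)
        = (m : ℂ) * (((p ^ a : ℕ) : ℂ) ^ 2) := by
      have h2 : (((p ^ a : ℕ) : ℂ) ^ 2) ≠ 0 := pow_ne_zero _ hpa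
      rw [div_eq_div_iff hG0 h2] at hpars
      rw [Int.cast_sum]
      linear_combination -hpars
    exact_mod_cast h1
  have hsum_le : ∑ ψ : IrrCharacter G, ctr p (triv G) ψ ^ 2 ≤ ((p ^ a : ℕ) : ℤ) ^ 2 := by
    have hGpos : (0 : ℤ) < (Nat.card G : ℤ) := by exact_mod_cast Nat.card_pos
    have h1 : (m : ℤ) * ((p ^ a : ℕ) : ℤ) ^ 2 ≤ (Nat.card G : ℤ) * ((p ^ a : ℕ) : ℤ) ^ 2 := by
      apply mul_le_mul_of_nonneg_right _ (sq_nonneg _)
      exact_mod_cast hmle
    rw [← hkey, mul_comm] at h1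
    exact le_of_mul_le_mul_left h1 hGpos
  have hcard : (Nat.card (IrrCharacter G) : ℤ) ≤ ∑ ψ : IrrCharacter G, ctr p (triv G) ψ ^ 2 := by
    rw [Nat.card_eq_fintype_card, ← Finset.card_univ, Finset.card_eq_sum_ones, Nat.cast_sum]
    refine Finset.sum_le_sum fun ψ _ => ?_
    have h1 := hne ψ
    have h2 : 0 < ctr p (triv G) ψ ^ 2 := by positivity
    push_cast
    omega
  have hfin : (Nat.card (IrrCharacter G) : ℤ) ≤ ((p ^ (2 * a) : ℕ) : ℤ) := by
    have h1 : ((p ^ (2 * a) : ℕ) : ℤ) = ((p ^ a : ℕ) : ℤ) ^ 2 := by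
      push_cast
      ring
    rw [h1]
    exact hcard.trans hsum_le
  exact_mod_cast hfin

end Cfsg.Agent.Lib.Helper75.SingleBlock
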