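import Mathlib
import Cfsg.Agent.Lib.Helper75.DCStmt
import Cfsg.Agent.S4718

/-!
# Assembly for S4719 from the pieces of `DCStmt`
-/

set_option autoImplicit false

namespace Cfsg.Agent.Lib.Helper75.DCFinal

open Cfsg Cfsg.Agent.Lib.Helper75.DCStmt

universe u

/-- The bound of the inductive step of Theorem A (reduced case). -/
def stepBound (a c N : ℕ) : ℕ :=
  c * (2 ^ (a + 1)).factorial + 2 ^ (a + 1) * N +
    (4 * (2 * (c + 2 * N) ^ 2)).factorial * N + 2 * (c + 2 * N) + 1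

theorem core (hTWO : TWO.{u}) (hFIX : FIX.{u}) (hCZ : CZ.{u}) (hBF : BF.{u}) (hNC : NC.{u})
    (hYN : YN.{u}) (a c N : ℕ) (hKB : KB.{u} a c N) : KBr.{u} (a + 1) c (stepBound a c N) := by
  intro Γ _ _ G v w hS hGen hNoOdd hfac
  have := hS.normal
  have hsb : stepBound a c N = c * (2 ^ (a + 1)).factorial + 2 ^ (a + 1) * N +
    (4 * (2 * (c + 2 * N) ^ 2)).factorial * N + 2 * (c + 2 * N) + 1 := rfl
  by_cases hT : ∃ T : Subgroup Γ, T.Normal ∧ T ≤ G ∧ IsPGroup 2 T ∧ T ≠ ⊥
  · obtain ⟨T, hTn, hTG, hT2, hTne⟩ := hT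
    have h := hTWO a c N hKB Γ G v w hS hfac T hTn hTG hT2 hTne
    rw [hsb]; omega
  · have hNoTwo : NoTwo G := by
      intro K hKn hKG hK2
      by_contra hne
      exact hT ⟨K, hKn, hKG, hK2, hne⟩
    rcases Nat.even_or_odd (Nat.card G) with hev | hodd
    · obtain ⟨z, hzG, hz1, hzz, hzv, hzw⟩ := hFIX Γ G v w hS.normal hev hS.v_sq hS.w_sq hS.comm
      have hcz := hCZ a c N hKB Γ G v w hS hfac z hzG hz1 hzz hzv hzw
      by_cases hsmall : 2 * (c + 2 * N) ≤ Nat.card G
      · obtain ⟨g, hgG, hg1, hg⟩ := hBF Γ G z (c + 2 * N) hzG hz1 hzz hcz hsmall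
        have hnc := hNC Γ G v w (2 * (c + 2 * N) ^ 2) hS.normal hGen g hgG hg
        have hYn : (Subgroup.normalClosure ({g} : Set Γ)).Normal := Subgroup.normalClosure_normal
        have hYG : Subgroup.normalClosure ({g} : Set Γ) ≤ G :=
          Subgroup.normalClosure_le_normal (by simpa using hgG)
        have hYne : Subgroup.normalClosure ({g} : Set Γ) ≠ ⊥ := by
          intro h
          have h1 : g ∈ Subgroup.normalClosure ({g} : Set Γ) :=
            Subgroup.subset_normalClosure (Set.mem_singleton g)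
          rw [h, Subgroup.mem_bot] at h1
          exact hg1 h1
        have hyn := hYN Γ G hS.normal hNoOdd hNoTwo _ hYn hYG hYne
        have hS₁ : Setting (G ⊓ Subgroup.centralizer
            ((Subgroup.normalClosure ({g} : Set Γ) : Subgroup Γ) : Set Γ)) v w c :=
          { normal := inferInstance
            v_ne := hS.v_ne
            w_ne := hS.w_ne
            vw_ne := hS.vw_ne
            v_sq := hS.v_sq
            w_sq := hS.w_sq
            comm := hS.comm
            cent := fun x hx => le_trans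
              (Subgroup.card_le_of_le (inf_le_inf_right _ inf_le_left)) (hS.cent x hx) }
        have hN₁le := hKB Γ _ v w hS₁ (by omega)
        have h2 := Nat.mul_le_mul_left (4 * (2 * (c + 2 * N) ^ 2)).factorial hN₁le
        rw [hsb]; omega
      · rw [hsb]; omega
    · have hG : G = ⊥ := hNoOdd G hS.normal le_rfl hodd
      rw [hG, Subgroup.card_bot, hsb]; omega

/-- **Theorem A.** -/
theorem thmA (hODD : ODD.{u}) (hRG : RG.{u}) (hRO : RO.{u}) (hTWO : TWO.{u}) (hFIX : FIX.{u})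
    (hCZ : CZ.{u}) (hBF : BF.{u}) (hNC : NC.{u}) (hYN : YN.{u}) (a c : ℕ) :
    ∃ N : ℕ, KB.{u} a c N := by
  induction a with
  | zero => exact ⟨c ^ 3, hODD c⟩
  | succ a ih =>
    obtain ⟨N, hN⟩ := ih
    exact ⟨c ^ 3 * stepBound a c N,
      hRG _ _ _ (hRO _ _ _ (hODD c) (core hTWO hFIX hCZ hBF hNC hYN a c N hN))⟩

theorem bd_zero (a : ℕ) : ∃ N : ℕ, Bd.{u} 0 a N := by
  obtain ⟨N, hN⟩ := Cfsg.Agent.S4718.result.{u} 2 a
  refine ⟨N, ?_⟩
  intro G _ _ M P hM hP hDC _
  apply hN G M hM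
  · have h1 := P.card_eq_multiplicity
    rw [hP] at h1
    exact (Nat.pow_right_injective (le_refl 2) h1).symm
  · intro B hB
    by_contra hne
    exact absurd (hDC B hB hne) (Nat.not_lt_zero _)

theorem bd_succ (hA : ∀ a c : ℕ, ∃ N : ℕ, KB.{u} a c N) (hCB : CB.{u}) (hPICK : PICK.{u})
    (r : ℕ) (ih : ∀ a : ℕ, ∃ N : ℕ, Bd.{u} r a N) (a : ℕ) : ∃ N : ℕ, Bd.{u} (r + 1) a N := by
  choose Nf hNf using ih
  obtain ⟨N, hN⟩ := hA a (2 * ∑ a' ∈ Finset.range a, Nf a')
  refine ⟨N, ?_⟩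
  intro G _ _ M P hM hP hDC hE
  obtain ⟨E, hEP, hEc, hE2, hEcard⟩ := hE
  have h3 : 3 ≤ Nat.card E := by
    rw [hEcard]
    have : 2 ^ (r + 1 + 1) = 4 * 2 ^ r := by ring
    have h1 : 1 ≤ 2 ^ r := Nat.one_le_two_pow
    omega
  obtain ⟨v, hv, w, hw, hv1, hw1, hvw⟩ := hPICK G E h3
  have hcomm : v * w = w * v := by
    have := hEc.is_comm.comm (⟨v, hv⟩ : E) ⟨w, hw⟩
    exact congrArg Subtype.val this
  have hvwE : v * w ∈ E := E.mul_mem hv hw
  have hvw1 : v * w ≠ 1 := by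
    intro h
    apply hvw
    have h2 := hE2 v hv
    calc v = v * (v * w) := by rw [h, mul_one]
      _ = (v * v) * w := by rw [mul_assoc]
      _ = w := by rw [h2, one_mul]
  have hcb := fun x hx hx1 => hCB r a Nf hNf G M P hM hP hDC E hEP hEc hE2 hEcard x hx hx1
  have hS : Setting (⊤ : Subgroup G) v w (2 * ∑ a' ∈ Finset.range a, Nf a') :=
    { normal := inferInstance
      v_ne := hv1
      w_ne := hw1
      vw_ne := hvw
      v_sq := hE2 v hv
      w_sq := hE2 w hw
      comm := hcomm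
      cent := by
        intro x hx
        rw [top_inf_eq]
        rcases hx with rfl | rfl | rfl
        · exact hcb _ hv hv1
        · exact hcb _ hw hw1
        · exact hcb _ hvwE hvw1 }
  have hfac : (Nat.card (⊤ : Subgroup G)).factorization 2 ≤ a := by
    rw [Subgroup.card_top]
    have h1 := P.card_eq_multiplicity
    rw [hP] at h1
    exact le_of_eq (Nat.pow_right_injective (le_refl 2) h1).symm
  have := hN G ⊤ v w hS hfac
  rwa [Subgroup.card_top] at this

theorem bd_all (hA : ∀ a c : ℕ, ∃ N : ℕ, KB.{u} a c N) (hCB : CB.{u}) (hPICK : PICK.{u})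
    (r a : ℕ) : ∃ N : ℕ, Bd.{u} r a N := by
  induction r generalizing a with
  | zero => exact bd_zero a
  | succ r ih => exact bd_succ hA hCB hPICK r ih a

/-- S4719 from the pieces. -/
theorem final (hA : ∀ a c : ℕ, ∃ N : ℕ, KB.{u} a c N) (hCB : CB.{u}) (hPICK : PICK.{u})
    (a : ℕ) : ∃ N : ℕ, ∀ (G : Type u) [Group G] [Finite G] (M : Ideal Cfsg.AlgInt) (r : ℕ)
      (P : Sylow 2 G), Cfsg.IsPModular 2 M → Nat.card P = 2 ^ a →
      (∀ B : Set (Cfsg.IrrCharacter G), Cfsg.IsPBlock M B → B ≠ Cfsg.principalBlock M G →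
        Cfsg.blockDefect 2 B < r) →
      (∃ E : Subgroup G, E ≤ (P : Subgroup G) ∧ IsMulCommutative E ∧ (∀ x ∈ E, x * x = 1) ∧
        Nat.card E = 2 ^ (r + 1)) → Nat.card G ≤ N := by
  choose Nf hNf using fun r => bd_all hA hCB hPICK r a
  refine ⟨∑ r ∈ Finset.range (a + 1), Nf r, ?_⟩
  intro G _ _ M r P hM hP hDC hE
  have hr : r ∈ Finset.range (a + 1) := by
    obtain ⟨E, hEP, -, -, hEcard⟩ := hE
    have h1 : Nat.card E ≤ Nat.card (P : Subgroup G) := Subgroup.card_le_of_le hEP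
    rw [hEcard] at h1
    have h2 : Nat.card (P : Subgroup G) = 2 ^ a := hP
    rw [h2] at h1
    have h3 : r + 1 ≤ a := (Nat.pow_le_pow_iff_right (by norm_num)).mp h1
    rw [Finset.mem_range]; omega
  exact le_trans (hNf r G M P hM hP hDC hE)
    (Finset.single_le_sum (f := Nf) (fun _ _ => Nat.zero_le _) hr)

end Cfsg.Agent.Lib.Helper75.DCFinal
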