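import Mathlib
import Cfsg.Agent.Lib.Helper37.HypStmt
import Cfsg.Agent.Lib.Helper94.EllStmt
import Cfsg.Agent.Lib.Helper93.HypB2

set_option autoImplicit false

/-! S5993 piece B2E (assembly): if `CondE` fails and `(2d+1) % c < m`, the element of `DerElt`
fixes no elliptic `m`-space.  Adapted from `Helper93.HypB2`. -/

namespace Cfsg.Agent.Lib.Helper75.EllB2E

universe u

open Cfsg.Agent.Lib.Helper37.HypStmt
open Cfsg.Agent.Lib.Helper94.EllStmt
open Cfsg.Agent.Lib.Helper93.HypB2 (cc_even cc_pos cc_of_even cc_of_odd even_mod_iff)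

/-- the arithmetic core of B2E -/
lemma core (d m i w1 : ℕ) (hi : 0 < i) (hk : (2 * d + 1) % cc i < m)
    (hnc : ¬ CondE d m i) (hw1k : w1 ≤ (2 * d + 1) % cc i) (hw1m : w1 ≤ m) (hmev : Even m)
    (hdvd : cc i ∣ m - w1) (hplusO : Odd i → w1 = 0 → False)
    (hplusE : Even i → w1 = 0 → Odd (m / i)) : False := by
  have hcpos : 0 < cc i := cc_pos hi
  have hklt : (2 * d + 1) % cc i < cc i := Nat.mod_lt _ hcpos
  have hmod : m % cc i = w1 := by
    obtain ⟨a, ha⟩ := hdvd
    have hm : m = w1 + cc i * a := by omega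
    rw [hm, Nat.add_mul_mod_self_left]
    exact Nat.mod_eq_of_lt (by omega)
  have hceven : Even (cc i) := cc_even i
  have hne : m % cc i ≠ (2 * d + 1) % cc i := by
    intro h
    have h1 : Even (m % cc i) := (even_mod_iff hceven m).mpr hmev
    rw [h] at h1
    have h2 : Even (2 * d + 1) := (even_mod_iff hceven (2 * d + 1)).mp h1
    exact (Nat.not_even_iff_odd.mpr ⟨d, rfl⟩) h2
  have hlt : m % cc i < (2 * d + 1) % cc i := by omega
  rcases Nat.even_or_odd i with hie | hio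
  · have hci : cc i = i := cc_of_even hie
    by_cases him : i ≤ m
    · by_cases h0 : 0 < m % cc i
      · exact hnc (Or.inr ⟨hie, him, hlt, Or.inl h0⟩)
      · exact hnc (Or.inr ⟨hie, him, hlt, Or.inr (hplusE hie (by omega))⟩)
    · have hmm : m % cc i = m := Nat.mod_eq_of_lt (by omega)
      omega
  · by_cases hcm : cc i ≤ m
    · by_cases h0 : m % cc i = 0
      · exact hplusO hio (by omega)
      · exact hnc (Or.inl ⟨hio, hcm, Nat.pos_of_ne_zero h0, hlt⟩)
    · have hmm : m % cc i = m := Nat.mod_eq_of_lt (by omega)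
      omega

theorem main (hIPos : IPos.{u}) (hDim : DimObs.{u}) (hTO : TypeOdd.{u}) (hTE : TypeEven.{u})
    (hDer : DerElt.{u}) : B2E.{u} := by
  intro F _ _ p _ _ hodd d m hd3 hm2 hmev hmle r _ hr2 hrp hk hnc
  have hi : 0 < orderOf ((Fintype.card F : ℕ) : ZMod r) := hIPos F p r hrp
  have hcle : cc (orderOf ((Fintype.card F : ℕ) : ZMod r)) ≤ 2 * d + 1 := by
    by_contra h
    rw [Nat.mod_eq_of_lt (not_le.mp h)] at hk
    omega
  obtain ⟨x, hxO, hxord, hxfix⟩ := hDer F p hodd d (by omega) r hr2 hrp hcle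
  refine ⟨x, hxO, hxord, ?_⟩
  intro W hW hStab
  have hxiso : x ∈ Cfsg.isometryGroup F (Cfsg.quadFormOdd d F) := by
    obtain ⟨y, -, rfl⟩ := hxO
    exact y.2
  have hxr : x ^ r = 1 := by rw [← hxord]; exact pow_orderOf_eq_one x
  obtain ⟨hWdim, hWnd, hWplus⟩ := hW
  have hdvd := hDim F p hodd d r hr2 hrp x hxiso hxr W hStab hWnd
  rw [hWdim] at hdvd
  have hw1k : Module.finrank F ↥(W ⊓ Fx (x : Matrix (I d) (I d) F)) ≤
      (2 * d + 1) % cc (orderOf ((Fintype.card F : ℕ) : ZMod r)) := by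
    rw [← hxfix]
    exact Submodule.finrank_mono inf_le_right
  have hw1m : Module.finrank F ↥(W ⊓ Fx (x : Matrix (I d) (I d) F)) ≤ m := by
    rw [← hWdim]
    exact Submodule.finrank_mono inf_le_left
  refine core d m _ _ hi hk hnc hw1k hw1m hmev hdvd ?_ ?_
  · intro hio hw0
    have hbot : W ⊓ Fx (x : Matrix (I d) (I d) F) = ⊥ := Submodule.finrank_eq_zero.mp hw0
    exact hWplus (hTO F p hodd d r hr2 hrp hio x hxiso hxr W hStab hWnd hbot)
  · intro hie hw0
    have hbot : W ⊓ Fx (x : Matrix (I d) (I d) F) = ⊥ := Submodule.finrank_eq_zero.mp hw0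
    have hiff := hTE F p hodd d r hr2 hrp hie x hxiso hxr W hStab hWnd hbot
    rw [hWdim] at hiff
    rw [← Nat.not_even_iff_odd]
    intro hev
    exact hWplus (hiff.mpr hev)

end Cfsg.Agent.Lib.Helper75.EllB2E
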