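import Mathlib
import Cfsg.Agent.Lib.Helper75.BlockLift
import Cfsg.Agent.Lib.Helper77.DefectClass

/-!
# Blocks with one simple module and at most four characters: equal degrees

`equal_degrees`: let `B` be a `p`-block with `blockRank p B = 1` and at most four irreducible
characters.  Given the structure theorem for symmetric algebras with one simple module and
centre of dimension at most four (hypothesis `hMS`), all characters of `B` have the same degree.

`agree_of_rank_one`: characters of equal degree in a block of rank one agree on the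
`p`-regular elements.
-/

set_option autoImplicit false
set_option linter.style.haveILetI false
set_option linter.unusedSectionVars false

namespace Cfsg.Agent.Lib.Helper75.OneSimple

open Cfsg Cfsg.Agent.Lib.Helper77.LocalRing Cfsg.Agent.Lib.Helper77.CentralChar
  Cfsg.Agent.Lib.Helper77.ClassSum Cfsg.Agent.Lib.Helper77.BlockIdem
  Cfsg.Agent.Lib.CT.Wedderburn Cfsg.Agent.Lib.Helper75.GrpAlg
  Cfsg.Agent.Lib.Helper75.TwoChar Cfsg.Agent.Lib.Helper75.BlockAlg
  Cfsg.Agent.Lib.Helper75.BlockRed Cfsg.Agent.Lib.Helper75.BlockLift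
  Cfsg.Agent.Lib.Helper75.SymAlg2
open scoped ComplexConjugate

universe u
variable {G : Type u} [Group G] {M : Ideal AlgInt}

theorem equal_degrees [Finite G] (p : ℕ) [Fact p.Prime] (hM : IsPModular p M)
    (B : Set (IrrCharacter G)) (hB : IsPBlock M B) (hl : blockRank p B = 1)
    (hk : Nat.card B ≤ 4)
    (hMS : ∀ (F : Type) [Field F] [IsAlgClosed F] (A : Type u) [Ring A] [Algebra F A]
      [FiniteDimensional F A] (lam : A →ₗ[F] F), (∀ x y, lam (x * y) = lam (y * x)) →
      (∀ x, x ≠ 0 → ∃ y, lam (x * y) ≠ 0) →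
      ∀ (n : ℕ) [NeZero n] (ψ : A →ₐ[F] Matrix (Fin n) (Fin n) F), Function.Surjective ψ →
      (∃ k : ℕ, (RingHom.ker (ψ : A →+* Matrix (Fin n) (Fin n) F)) ^ k = ⊥) →
      ∀ (c : Fin 4 → A),
        (∀ w : A, (∀ x, w * x = x * w) → ∃ t : Fin 4 → F, w = ∑ i, t i • c i) →
      (∃ a : Fin n × Fin n → A, ∀ x : A, ∃ w : Fin n × Fin n → A,
        (∀ i y, w i * y = y * w i) ∧ x = ∑ i, w i * a i) ∧
      Module.finrank F (Subalgebra.center F A) * n ^ 2 ≤ Module.finrank F A) :
    ∃ n : ℕ, ∀ χ ∈ B, charDegree (χ : G → ℂ) = n := by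
  classical
  have hMp := isPrime_of_isPModular hM
  letI : Fintype G := Fintype.ofFinite G
  haveI := finite_irrCharacter G
  letI : Fintype (IrrCharacter G) := Fintype.ofFinite _
  obtain ⟨F, instF, instAC, q, hq0, hqs⟩ :=
    Cfsg.Agent.Lib.Helper75.ResField2.exists_resField2 hMp hM.2.1
  letI := instF
  haveI := instAC
  haveI : Module.Finite F (MonoidAlgebra F G) :=
    Module.Finite.equiv (MonoidAlgebra.coeffLinearEquiv (R := F) (S := F) (M := G)).symm
  obtain ⟨ê, hê⟩ : ∃ ê : MonoidAlgebra (localSubring M hMp) G, incl hMp ê = blockIdem B :=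
    ⟨lift hMp _ (blockIdem_mem_intSubring hMp B hB), incl_lift hMp _ _⟩
  have hinj := incl_injective (G := G) hMp
  have hec : blockIdem B ∈ Zc G := blockIdem_mem_center B
  have h1 : ê * ê = ê :=
    hinj (by rw [map_mul, hê, Cfsg.Agent.Lib.Helper17.BrBridge.blockIdem_mul_self])
  have h4 : ∀ g : G, ê * MonoidAlgebra.single g 1 = MonoidAlgebra.single g 1 * ê := by
    intro g
    apply hinj
    rw [map_mul, map_mul, hê, incl_single_one]
    exact ((Subalgebra.mem_center_iff.1 hec) _).symm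
  obtain ⟨ē, hēdef⟩ : ∃ ē, ē = MonoidAlgebra.mapRingHom G q ê := ⟨_, rfl⟩
  have hē : ē * ē = ē := by rw [hēdef, ← map_mul, h1]
  have hēc : ∀ x, ē * x = x * ē :=
    central_of_comm_single ē fun g => by
      rw [hēdef, ← mapRingHom_single_one q g, ← map_mul, h4 g, map_mul]
  -- the dimension of the block
  obtain ⟨r, hr⟩ : ∃ r : ℕ,
      r = ∑ χ ∈ B.toFinset, charDegree (χ : G → ℂ) * charDegree (χ : G → ℂ) := ⟨_, rfl⟩
  have hdim : Module.finrank F ↥(LinearMap.range (LinearMap.mulLeft F ē)) = r := by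
    rw [hēdef]
    refine finrank_of_idem (localSubring M hMp).subtype Subtype.val_injective q ê h1 r ?_
    show (Nat.card G : ℂ) * (incl hMp ê).coeff 1 = r
    rw [hê, coeff_blockIdem, card_mul_blockCoeff_one, hr]
  obtain ⟨χ₀, hχ₀⟩ := hB
  have hχ₀B : χ₀ ∈ B := by
    rw [hχ₀]
    exact Cfsg.Agent.Lib.Helper77.DefectClass.self_mem_blockOf hMp χ₀
  have hB : IsPBlock M B := ⟨χ₀, hχ₀⟩
  have hrpos : 0 < r := by
    have h2 : charDegree (χ₀ : G → ℂ) * charDegree (χ₀ : G → ℂ) ≤ r := by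
      rw [hr]
      exact Finset.single_le_sum (f := fun χ : IrrCharacter G =>
        charDegree (χ : G → ℂ) * charDegree (χ : G → ℂ)) (fun _ _ => Nat.zero_le _)
        (Set.mem_toFinset.2 hχ₀B)
    have h3 := irr_charDegree_pos χ₀.2
    have h5 := Nat.mul_pos h3 h3
    omega
  -- the block algebra
  obtain ⟨π, lam', hπs, hπ0, hπ1, hsym', hnd', hcenA, hcenle, hfinA⟩ :=
    exists_quot (lam1 F G) lam1_symm lam1_nondeg ē hē hēc
  haveI : FiniteDimensional F (MonoidAlgebra F G ⧸ annIdeal ē hēc) :=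
    Module.Finite.of_surjective π.toLinearMap hπs
  haveI : Nontrivial (MonoidAlgebra F G ⧸ annIdeal ē hēc) := by
    apply Module.nontrivial_of_finrank_pos (R := F)
    rw [hfinA, hdim]
    exact hrpos
  obtain ⟨L, τ, hL, hτc, hτn, hτli, hτ1⟩ :=
    exists_traces (F := F) (A := MonoidAlgebra F G ⧸ annIdeal ē hēc)
  have hL1 : L ≤ 1 := by
    rw [← hl]
    refine num_traces_le p hM hMp q hq0 hqs B ê hê (fun i => (τ i).comp π.toLinearMap)
      ?_ ?_ ?_ ?_
    · intro i x y
      show τ i (π (x * y)) = τ i (π (y * x))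
      rw [map_mul π x y, map_mul π y x, hτc]
    · intro i x hx
      exact hτn i _ (hx.map π)
    · intro i x
      rw [← hēdef]
      show τ i (π (ē * x)) = τ i (π x)
      rw [map_mul π ē x, hπ1, one_mul]
    · intro a ha
      apply hτli a
      intro y
      obtain ⟨x, rfl⟩ := hπs y
      exact ha x
  obtain ⟨n, hn0, ψ, hψs, hψnil⟩ := hτ1 (by omega)
  haveI := hn0
  -- the centre
  have hcE : Module.finrank F ↥(centE F ē) ≤ 4 := by
    have h2 := finrank_centE_le hMp q hqs B ê hê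
    rw [← hēdef] at h2
    exact h2.trans hk
  obtain ⟨c', hc'⟩ := exists_fin_span (F := F) 4 hcE
  have hcen : ∀ w : MonoidAlgebra F G ⧸ annIdeal ē hēc, (∀ x, w * x = x * w) →
      ∃ t : Fin 4 → F, w = ∑ i, t i • π ((c' i : ↥(centE F ē)) : MonoidAlgebra F G) := by
    intro w hw
    obtain ⟨w0, hw0, rfl⟩ := hcenA w hw
    obtain ⟨t, ht⟩ := hc' ⟨w0, hw0⟩
    refine ⟨t, ?_⟩
    have h2 := congrArg (fun z : ↥(centE F ē) => π (z : MonoidAlgebra F G)) ht
    simp only [Submodule.coe_sum, Submodule.coe_smul, map_sum, map_smul] at h2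
    exact h2
  obtain ⟨⟨a, ha⟩, hfin⟩ := hMS F (MonoidAlgebra F G ⧸ annIdeal ē hēc) lam' hsym' hnd' n ψ
    hψs hψnil (fun i => π ((c' i : ↥(centE F ē)) : MonoidAlgebra F G)) hcen
  -- the degrees are at most `n`
  have hle : ∀ χ ∈ B, charDegree (χ : G → ℂ) ≤ n := by
    intro χ hχ
    obtain ⟨a', ha'⟩ : ∃ a' : Fin n × Fin n → MonoidAlgebra F G, ∀ i, π (a' i) = a i :=
      ⟨fun i => (hπs (a i)).choose, fun i => (hπs (a i)).choose_spec⟩
    refine degree_le hMp q hq0 hqs B ê hê n a' ?_ χ hχ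
    intro x
    rw [← hēdef]
    obtain ⟨w, hwc, hw⟩ := ha (π x)
    choose w0 hw0 hw0' using fun i => hcenA (w i) (hwc i)
    refine ⟨w0, fun i => (hw0 i).1, ?_⟩
    have h2 : π (x - ∑ i, w0 i * a' i) = 0 := by
      rw [map_sub, map_sum, hw, sub_eq_zero]
      exact Finset.sum_congr rfl fun i _ => by rw [map_mul, hw0', ha']
    rw [hπ0, mul_sub, sub_eq_zero, Finset.mul_sum] at h2
    rw [h2]
    exact Finset.sum_congr rfl fun i _ => by rw [← mul_assoc, (hw0 i).2]
  -- the centre has dimension at least `|B|`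
  have hcl : Nat.card B ≤ Module.finrank F ↥(centE F ē) := by
    have h5 := card_conjClasses_le (F := F) (G := G)
    have h6 := finrank_centE_one_le (F := F) ē hē hēc
    have h7 : Module.finrank F ↥(centE F (1 - ē))
        ≤ Nat.card ↥(Bᶜ : Set (IrrCharacter G)) := by
      have h8 := finrank_centE_le hMp q hqs Bᶜ (1 - ê) (by
        rw [map_sub, map_one, hê, Cfsg.Agent.Lib.CT.PrincipalSection.blockIdem_compl])
      rw [map_sub, map_one, ← hēdef] at h8
      exact h8
    have h8 : Nat.card (IrrCharacter G) = Nat.card (ConjClasses G) :=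
      Cfsg.Agent.Lib.CT.Orth.card_irrCharacter
    have h9 : Nat.card B + Nat.card ↥(Bᶜ : Set (IrrCharacter G))
        = Nat.card (IrrCharacter G) := by
      rw [Nat.card_coe_set_eq, Nat.card_coe_set_eq]
      exact Set.ncard_add_ncard_compl B
    omega
  -- squeeze
  refine ⟨n, fun χ hχ => ?_⟩
  by_contra hne
  have hlt : charDegree (χ : G → ℂ) < n := lt_of_le_of_ne (hle χ hχ) hne
  have h10 : r < ∑ _ψ ∈ B.toFinset, n * n := by
    rw [hr]
    apply Finset.sum_lt_sum
    · intro ψ hψ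
      exact Nat.mul_le_mul (hle ψ (Set.mem_toFinset.1 hψ)) (hle ψ (Set.mem_toFinset.1 hψ))
    · exact ⟨χ, Set.mem_toFinset.2 hχ, Nat.mul_lt_mul'' hlt hlt⟩
  rw [Finset.sum_const, smul_eq_mul, Set.toFinset_card, ← Nat.card_eq_fintype_card] at h10
  have h11 : Nat.card B * (n * n) ≤ r := by
    calc Nat.card B * (n * n) ≤ Module.finrank F ↥(centE F ē) * (n * n) :=
          Nat.mul_le_mul_right _ hcl
      _ ≤ Module.finrank F ↥(Subalgebra.center F (MonoidAlgebra F G ⧸ annIdeal ē hēc))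
            * (n * n) := Nat.mul_le_mul_right _ hcenle
      _ = Module.finrank F ↥(Subalgebra.center F (MonoidAlgebra F G ⧸ annIdeal ē hēc))
            * n ^ 2 := by rw [pow_two]
      _ ≤ Module.finrank F (MonoidAlgebra F G ⧸ annIdeal ē hēc) := hfin
      _ = r := by rw [hfinA, hdim]
  omega

theorem agree_of_rank_one [Finite G] (p : ℕ) [Fact p.Prime] (B : Set (IrrCharacter G))
    (hl : blockRank p B = 1) (n : ℕ) (hn : ∀ χ ∈ B, charDegree (χ : G → ℂ) = n) :
    ∀ χ ∈ B, ∀ ψ ∈ B, ∀ x : G, ¬ p ∣ orderOf x → (χ : G → ℂ) x = (ψ : G → ℂ) x := by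
  classical
  intro χ hχ ψ hψ x hx
  have hpp : p.Prime := Fact.out
  unfold blockRank at hl
  obtain ⟨v₀, -, hspan⟩ := finrank_eq_one_iff'.1 hl
  obtain ⟨c₁, hc₁⟩ := hspan ⟨pRegularPart p (χ : G → ℂ), Submodule.subset_span ⟨χ, hχ, rfl⟩⟩
  obtain ⟨c₂, hc₂⟩ := hspan ⟨pRegularPart p (ψ : G → ℂ), Submodule.subset_span ⟨ψ, hψ, rfl⟩⟩
  have e1 : c₁ • (v₀ : G → ℂ) = pRegularPart p (χ : G → ℂ) := congrArg Subtype.val hc₁
  have e2 : c₂ • (v₀ : G → ℂ) = pRegularPart p (ψ : G → ℂ) := congrArg Subtype.val hc₂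
  have h1reg : IsPRegular p (1 : G) := by
    unfold IsPRegular
    rw [orderOf_one]
    exact hpp.not_dvd_one
  have hval : ∀ (φ : G → ℂ) (g : G), IsPRegular p g → pRegularPart p φ g = φ g := by
    intro φ g hg
    unfold pRegularPart
    rw [if_pos hg]
  have hχ1 : (χ : G → ℂ) 1 = n := by
    rw [← char_natCast_charDegree (isCharacter_of_irr χ.2), hn χ hχ]
  have hψ1 : (ψ : G → ℂ) 1 = n := by
    rw [← char_natCast_charDegree (isCharacter_of_irr ψ.2), hn ψ hψ]
  have hnpos : 0 < n := by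
    rw [← hn χ hχ]
    exact irr_charDegree_pos χ.2
  have hn0 : (n : ℂ) ≠ 0 := Nat.cast_ne_zero.mpr hnpos.ne'
  have e3 : c₁ * (v₀ : G → ℂ) 1 = n := by
    have h2 := congrFun e1 1
    rw [hval _ _ h1reg, hχ1] at h2
    exact h2
  have e4 : c₂ * (v₀ : G → ℂ) 1 = n := by
    have h2 := congrFun e2 1
    rw [hval _ _ h1reg, hψ1] at h2
    exact h2
  have hv1 : (v₀ : G → ℂ) 1 ≠ 0 := by
    intro h0
    rw [h0, mul_zero] at e3
    exact hn0 e3.symm
  have hcc : c₁ = c₂ := mul_right_cancel₀ hv1 (e3.trans e4.symm)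
  have h5 : pRegularPart p (χ : G → ℂ) x = pRegularPart p (ψ : G → ℂ) x := by
    rw [← e1, ← e2, hcc]
  rw [hval _ _ hx, hval _ _ hx] at h5
  exact h5

end Cfsg.Agent.Lib.Helper75.OneSimple
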