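import Mathlib
import Cfsg.Prelude.Def_Blocks
import Cfsg.Prelude.Def_BlockRank
import Cfsg.Agent.Lib.Helper80.Integrality
import Cfsg.Agent.Lib.Helper80.PReg
import Cfsg.Agent.Lib.Helper26.GenChar
import Cfsg.Agent.Lib.Helper75.Section2
import Cfsg.Agent.Lib.Helper77.ClassSum
import Cfsg.Agent.Lib.CT.Ops
import Cfsg.Agent.Lib.CT.Clifford

/-!
`p`-conjugate characters (namespace `Cfsg.Agent.Lib.Helper75.PConj`): Galois automorphisms fixing
the `p'`-roots of unity fix character values on `p`-regular elements; Brauer's bound on the number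
of `p`-conjugates of an irreducible character.
-/

set_option autoImplicit false

namespace Cfsg.Agent.Lib.Helper75.PConj

open Cfsg
open Cfsg.Agent.Lib.CT.Wedderburn Cfsg.Agent.Lib.CT.Orth Cfsg.Agent.Lib.Helper75.Section
open scoped ComplexConjugate

universe u
variable {G : Type u} [Group G]

/-- A ring automorphism fixing all `n`-th roots of unity fixes the trace of an endomorphism
whose `n`-th power is the identity. -/
theorem map_trace_of_pow_eq_one {V : Type*} [AddCommGroup V] [Module ℂ V]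
    [FiniteDimensional ℂ V] (f : Module.End ℂ V) (n : ℕ) (hf : f ^ n = 1) (σ : ℂ ≃+* ℂ)
    (hσ : ∀ μ : ℂ, μ ^ n = 1 → σ μ = μ) :
    σ (LinearMap.trace ℂ V f) = LinearMap.trace ℂ V f := by
  have key : (f.charpoly.roots.map σ) = f.charpoly.roots := by
    conv_rhs => rw [← Multiset.map_id f.charpoly.roots]
    refine Multiset.map_congr rfl fun μ hμ => ?_
    have hroot : f.charpoly.IsRoot μ := (Polynomial.mem_roots'.1 hμ).2
    have hev : f.HasEigenvalue μ := (Module.End.hasEigenvalue_iff_isRoot_charpoly f μ).2 hroot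
    obtain ⟨v, hv⟩ := hev.exists_hasEigenvector
    have h1 : μ ^ n = 1 := by
      have h2 := hv.pow_apply n
      rw [hf, Module.End.one_apply] at h2
      have h3 : (μ ^ n - 1) • v = 0 := by rw [sub_smul, one_smul, ← h2, sub_self]
      rcases smul_eq_zero.1 h3 with h4 | h4
      · exact sub_eq_zero.1 h4
      · exact absurd h4 hv.2
    exact hσ μ h1
  rw [Module.End.trace_eq_sum_roots_charpoly_of_splits (IsAlgClosed.splits _), map_multiset_sum,
    key]

/-- An automorphism fixing `exp (2πi/m)` fixes every `n`-th root of unity for `n ∣ m`. -/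
theorem map_eq_of_pow_eq_one (m : ℕ) (hm : m ≠ 0) (σ : ℂ ≃+* ℂ)
    (hσ : σ (Complex.exp (2 * Real.pi * Complex.I / (m : ℕ))) =
      Complex.exp (2 * Real.pi * Complex.I / (m : ℕ)))
    (n : ℕ) (hn : n ∣ m) (μ : ℂ) (hμ : μ ^ n = 1) : σ μ = μ := by
  have hprim := Complex.isPrimitiveRoot_exp m hm
  have hμm : μ ^ m = 1 := by
    obtain ⟨k, rfl⟩ := hn
    rw [pow_mul, hμ, one_pow]
  haveI : NeZero m := ⟨hm⟩
  obtain ⟨i, _, hi⟩ := hprim.eq_pow_of_pow_eq_one hμm
  rw [← hi, map_pow, hσ]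

/-- An automorphism fixing `exp (2πi/m)` fixes the values of characters at elements of order
dividing `m`. -/
theorem map_char_apply {χ : G → ℂ} (hχ : IsCharacter G χ) (m : ℕ) (hm : m ≠ 0) (σ : ℂ ≃+* ℂ)
    (hσ : σ (Complex.exp (2 * Real.pi * Complex.I / (m : ℕ))) =
      Complex.exp (2 * Real.pi * Complex.I / (m : ℕ)))
    (g : G) (hg : orderOf g ∣ m) : σ (χ g) = χ g := by
  obtain ⟨n, ρ, rfl⟩ := hχ
  refine map_trace_of_pow_eq_one (ρ g) (orderOf g) ?_ σ
    (fun μ hμ => map_eq_of_pow_eq_one m hm σ hσ (orderOf g) hg μ hμ)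
  rw [← map_pow, pow_orderOf_eq_one, map_one]

/-- The sum of a character over a subgroup is the order of the subgroup times a natural number. -/
theorem exists_sum_subgroup {χ : G → ℂ} (hχ : IsCharacter G χ) (P : Subgroup G) [Fintype P] :
    ∃ m : ℕ, ∑ u : P, χ (u : G) = (Nat.card P : ℂ) * m := by
  obtain ⟨m, hm⟩ := Cfsg.Agent.Lib.CT.Clifford.classInner_char_nat
    (Cfsg.Agent.Lib.CT.Ops.isCharacter_restrict P hχ)
    (Cfsg.Agent.Lib.CT.Ops.isCharacter_one (G := P))
  refine ⟨m, ?_⟩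
  unfold classInner at hm
  have hne : (Nat.card P : ℂ) ≠ 0 := Nat.cast_ne_zero.mpr Nat.card_pos.ne'
  rw [← hm, ← mul_assoc, mul_inv_cancel₀ hne, one_mul]
  refine Finset.sum_congr rfl fun u _ => ?_
  simp

/-- Integrality of `∑ₓ a(x) χ(x) / χ(1)` for an integral valued class function `a`. -/
theorem isIntegral_sum_div_degree [Fintype G] (χ : IrrCharacter G) (a : G → ℂ)
    (ha : IsClassFunction G a) (hai : ∀ g, IsIntegral ℤ (a g)) :
    IsIntegral ℤ (∑ x : G, a x * (χ : G → ℂ) x / (χ : G → ℂ) 1) := by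
  classical
  rw [← Finset.sum_fiberwise Finset.univ (fun x : G => ConjClasses.mk x)
    (fun x => a x * (χ : G → ℂ) x / (χ : G → ℂ) 1)]
  refine IsIntegral.sum _ fun c _ => ?_
  obtain ⟨y, rfl⟩ := ConjClasses.mk_surjective c
  have h1 : ∀ x ∈ Finset.univ.filter (fun x : G => ConjClasses.mk x = ConjClasses.mk y),
      a x * (χ : G → ℂ) x / (χ : G → ℂ) 1 = a y * (χ : G → ℂ) y / (χ : G → ℂ) 1 := by
    intro x hx
    have hx' : IsConj x y := ConjClasses.mk_eq_mk_iff_isConj.1 (Finset.mem_filter.1 hx).2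
    obtain ⟨t, ht⟩ := isConj_iff.1 hx'
    rw [← ht, ha x t, irr_isClassFunction χ x t]
  rw [Finset.sum_congr rfl h1, Finset.sum_const, nsmul_eq_mul]
  have h2 : (Finset.univ.filter (fun x : G => ConjClasses.mk x = ConjClasses.mk y)).card =
      (Subgroup.centralizer ({y} : Set G)).index := by
    rw [← Cfsg.Agent.Lib.Helper77.ClassSum.card_conj_eq_index y]
    congr 1
    ext x
    simp only [Finset.mem_filter, Finset.mem_univ, true_and]
    rw [ConjClasses.mk_eq_mk_iff_isConj]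
    exact isConj_comm
  rw [h2]
  have h3 := Cfsg.Agent.Lib.Helper80.Integrality.isIntegral_centralChar χ y
  have h4 : ((Subgroup.centralizer ({y} : Set G)).index : ℂ) *
      (a y * (χ : G → ℂ) y / (χ : G → ℂ) 1) = a y * centralChar (χ : G → ℂ) y := by
    unfold centralChar
    ring
  rw [h4]
  exact (hai y).mul h3

/-- **Brauer.** Let `S` be a set of irreducible characters, containing `χ`, all of which are
obtained from `χ` by an automorphism of `ℂ` fixing the `|G|_{p'}`-th roots of unity.  Then the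
`p`-part of `|S| χ(1)` is at most `|G|_p`, and if `|G|_p` divides `|S| χ(1)` it divides `χ(1)`. -/
theorem main [Fintype G] [Fintype (IrrCharacter G)] (p : ℕ) (hp : p.Prime)
    (χ : IrrCharacter G) (S : Finset (IrrCharacter G)) (hχS : χ ∈ S)
    (hS : ∀ ψ ∈ S, ∃ σ : ℂ ≃+* ℂ,
      σ (Complex.exp (2 * Real.pi * Complex.I /
        ((Nat.card G / p ^ (Nat.card G).factorization p : ℕ)))) =
      Complex.exp (2 * Real.pi * Complex.I /
        ((Nat.card G / p ^ (Nat.card G).factorization p : ℕ))) ∧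
      (ψ : G → ℂ) = fun g => σ ((χ : G → ℂ) g)) :
    (S.card * charDegree (χ : G → ℂ)).factorization p ≤ (Nat.card G).factorization p ∧
    (p ^ (Nat.card G).factorization p ∣ S.card * charDegree (χ : G → ℂ) →
      p ^ (Nat.card G).factorization p ∣ charDegree (χ : G → ℂ)) := by
  classical
  haveI : Fact p.Prime := ⟨hp⟩
  set a := (Nat.card G).factorization p with ha
  set g' := Nat.card G / p ^ a with hg'
  have hcard : p ^ a * g' = Nat.card G := Nat.ordProj_mul_ordCompl_eq_self (Nat.card G) p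
  have hGpos : 0 < Nat.card G := Nat.card_pos
  have hg'pos : 0 < g' := by
    rcases Nat.eq_zero_or_pos g' with h | h
    · rw [h, mul_zero] at hcard; omega
    · exact h
  have hcop : Nat.Coprime p g' := Nat.coprime_ordCompl hp hGpos.ne'
  have hχc : IsCharacter G (χ : G → ℂ) := isCharacter_of_irr χ.2
  set d := charDegree (χ : G → ℂ) with hd
  have hdpos : 0 < d := Cfsg.Agent.Lib.Helper80.Integrality.charDegree_pos χ
  have hd1 : (d : ℂ) = (χ : G → ℂ) 1 := char_natCast_charDegree hχc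
  have hrpos : 0 < S.card := Finset.card_pos.2 ⟨χ, hχS⟩
  -- Step 1: members of `S` agree with `χ` on `p`-regular elements
  have hreg : ∀ ψ ∈ S, ∀ g : G, ¬ p ∣ orderOf g → (ψ : G → ℂ) g = (χ : G → ℂ) g := by
    intro ψ hψ g hg
    obtain ⟨σ, hσ, he⟩ := hS ψ hψ
    rw [he]
    refine map_char_apply hχc g' hg'pos.ne' σ hσ g ?_
    have h1 : orderOf g ∣ p ^ a * g' := by rw [hcard]; exact orderOf_dvd_natCard g
    have h2 : Nat.Coprime (orderOf g) (p ^ a) :=
      Nat.Coprime.pow_right a ((Nat.Prime.coprime_iff_not_dvd hp).2 hg).symm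
    exact h2.dvd_of_dvd_mul_left h1
  have hregpart : ∀ ψ ∈ S, pRegularPart p (ψ : G → ℂ) = pRegularPart p (χ : G → ℂ) := by
    intro ψ hψ
    funext g
    by_cases hg : p ∣ orderOf g
    · rw [pRegularPart_of_singular p _ hg, pRegularPart_of_singular p _ hg]
    · rw [pRegularPart_of_regular p _ hg, pRegularPart_of_regular p _ hg, hreg ψ hψ g hg]
  set χ0 := pRegularPart p (χ : G → ℂ) with hχ0
  have hcf0 : IsClassFunction G χ0 :=
    Cfsg.Agent.Lib.Helper75.BlockRank.isClassFunction_pRegularPart p (irr_isClassFunction χ)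
  set c := classInner χ0 (χ : G → ℂ) with hc
  have hcS : ∀ ψ ∈ S, classInner χ0 (ψ : G → ℂ) = c := by
    intro ψ hψ
    rw [hc, ← classInner_pRegularPart_right p, ← classInner_pRegularPart_right p (χ : G → ℂ)
      (χ : G → ℂ), hregpart ψ hψ]
  have hc00 : classInner χ0 χ0 = c := by
    rw [hc, hχ0, classInner_pRegularPart_right]
  -- `p ^ a * c` is an integer
  obtain ⟨m, hm⟩ : ∃ m : ℤ, ((p ^ a : ℕ) : ℂ) * c = m := by
    have h1 := Cfsg.Agent.Lib.Helper80.PReg.isGeneralizedCharacter_pRegular p (χ : G → ℂ) hχc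
    obtain ⟨n, hn⟩ := Cfsg.Agent.Lib.Helper26.GenChar.classInner_genChar_int h1
      (Cfsg.Agent.Lib.Helper26.GenChar.isGeneralizedCharacter_of_irr χ.2)
    refine ⟨n, ?_⟩
    rw [← hn, hc]
    unfold classInner
    rw [mul_left_comm, Finset.mul_sum]
    congr 1
    refine Finset.sum_congr rfl fun x _ => ?_
    by_cases hx : p ∣ orderOf x
    · rw [hχ0, pRegularPart_of_singular p _ hx]; simp only [if_pos hx]; ring
    · rw [hχ0, pRegularPart_of_regular p _ hx]; simp only [if_neg hx]; ring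
  -- `c` is a positive real
  set cr : ℝ := (Nat.card G : ℝ)⁻¹ * ∑ g : G, ‖χ0 g‖ ^ 2 with hcr
  have hccr : c = (cr : ℂ) := by
    rw [← hc00, Cfsg.Agent.Lib.Helper26.GenChar.classInner_self]
  have hcrpos : 0 < cr := by
    have h1 : ‖χ0 1‖ ^ 2 ≤ ∑ g : G, ‖χ0 g‖ ^ 2 :=
      Finset.single_le_sum (f := fun g : G => ‖χ0 g‖ ^ 2) (fun g _ => by positivity)
        (Finset.mem_univ 1)
    have h2 : χ0 1 = (d : ℂ) := by
      rw [hχ0, pRegularPart_of_regular p _ (by rw [orderOf_one]; exact hp.one_lt.ne' ∘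
        Nat.dvd_one.1), hd1]
    have h3 : 0 < ‖χ0 1‖ ^ 2 := by
      rw [h2]
      have : (0 : ℝ) < d := by exact_mod_cast hdpos
      simp only [Complex.norm_natCast]
      positivity
    have h4 : (0 : ℝ) < (Nat.card G : ℝ)⁻¹ := by
      have : (0 : ℝ) < Nat.card G := by exact_mod_cast hGpos
      positivity
    exact mul_pos h4 (lt_of_lt_of_le h3 h1)
  have hmr : ((p ^ a : ℕ) : ℝ) * cr = (m : ℝ) := by
    have h1 : (((((p ^ a : ℕ) : ℝ) * cr : ℝ)) : ℂ) = (((m : ℝ)) : ℂ) := by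
      push_cast
      rw [← hccr]
      exact_mod_cast hm
    exact Complex.ofReal_injective h1
  have hpapos : (0 : ℝ) < ((p ^ a : ℕ) : ℝ) := by
    exact_mod_cast Nat.pos_of_ne_zero (pow_ne_zero a hp.ne_zero)
  have hmpos : 0 < m := by
    have : (0 : ℝ) < (m : ℝ) := by rw [← hmr]; exact mul_pos hpapos hcrpos
    exact_mod_cast this
  -- Parseval
  have hpars : cr = ∑ ψ : IrrCharacter G, Complex.normSq (classInner χ0 (ψ : G → ℂ)) := by
    have h1 := Cfsg.Agent.Lib.Helper75.Section2.classInner_eq_sum χ0 χ0 hcf0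
    rw [hc00, hccr] at h1
    have h2 : ∀ ψ : IrrCharacter G, classInner χ0 (ψ : G → ℂ) *
        conj (classInner χ0 (ψ : G → ℂ)) =
        ((Complex.normSq (classInner χ0 (ψ : G → ℂ)) : ℝ) : ℂ) := fun ψ => Complex.mul_conj _
    rw [Finset.sum_congr rfl (fun ψ _ => h2 ψ), ← Complex.ofReal_sum] at h1
    exact Complex.ofReal_injective h1
  have hSsum : ∑ ψ ∈ S, Complex.normSq (classInner χ0 (ψ : G → ℂ)) = S.card * (cr * cr) := by
    rw [Finset.sum_congr rfl (fun ψ hψ => by rw [hcS ψ hψ, hccr, Complex.normSq_ofReal]),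
      Finset.sum_const, nsmul_eq_mul]
  have hle : (S.card : ℝ) * (cr * cr) ≤ cr := by
    rw [← hSsum]
    conv_rhs => rw [hpars]
    exact Finset.sum_le_sum_of_subset_of_nonneg (Finset.subset_univ S)
      (fun ψ _ _ => Complex.normSq_nonneg _)
  have hrc : (S.card : ℝ) * cr ≤ 1 := by
    by_contra hcon
    rw [not_le] at hcon
    have : cr < (S.card : ℝ) * cr * cr := by
      calc cr = 1 * cr := (one_mul cr).symm
        _ < (S.card : ℝ) * cr * cr := mul_lt_mul_of_pos_right hcon hcrpos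
    linarith
  have hrm : (S.card : ℤ) * m ≤ ((p ^ a : ℕ) : ℤ) := by
    have h1 : (S.card : ℝ) * (m : ℝ) ≤ ((p ^ a : ℕ) : ℝ) := by
      rw [← hmr]
      calc (S.card : ℝ) * (((p ^ a : ℕ) : ℝ) * cr) = ((p ^ a : ℕ) : ℝ) * ((S.card : ℝ) * cr) := by
            ring
        _ ≤ ((p ^ a : ℕ) : ℝ) * 1 := mul_le_mul_of_nonneg_left hrc hpapos.le
        _ = ((p ^ a : ℕ) : ℝ) := mul_one _
    exact_mod_cast h1
  -- integrality: `χ(1) ∣ g' * m`
  obtain ⟨mn, hmn⟩ : ∃ mn : ℕ, (mn : ℤ) = m := ⟨m.toNat, Int.toNat_of_nonneg hmpos.le⟩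
  have hmnpos : 0 < mn := by
    have : (0 : ℤ) < (mn : ℤ) := by rw [hmn]; exact hmpos
    exact_mod_cast this
  have hdvd : d ∣ g' * mn := by
    apply Cfsg.Agent.Lib.Helper80.Integrality.dvd_of_isIntegral_div hdpos.ne'
    have h1 := isIntegral_sum_div_degree χ (fun x => conj (χ0 x))
      (fun g h => by
        show conj (χ0 (h * g * h⁻¹)) = conj (χ0 g)
        rw [hcf0 g h])
      (fun g => by
        have hg : IsIntegral ℤ (χ0 g) := by
          by_cases hx : p ∣ orderOf g
          · rw [hχ0, pRegularPart_of_singular p _ hx]; exact isIntegral_zero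
          · rw [hχ0, pRegularPart_of_regular p _ hx]
            exact Cfsg.Agent.Lib.Helper80.Integrality.isIntegral_irrCharacter χ g
        exact map_isIntegral_int (starRingEnd ℂ) hg)
    have h2 : ∑ x : G, conj (χ0 x) * (χ : G → ℂ) x / (χ : G → ℂ) 1 =
        ((g' * mn : ℕ) : ℂ) / (d : ℂ) := by
      have h3 : ∑ x : G, conj (χ0 x) * (χ : G → ℂ) x = (Nat.card G : ℂ) * c := by
        rw [hc]
        unfold classInner
        have hne : (Nat.card G : ℂ) ≠ 0 := Nat.cast_ne_zero.mpr hGpos.ne'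
        rw [← mul_assoc, mul_inv_cancel₀ hne, one_mul]
        refine Finset.sum_congr rfl fun x _ => ?_
        by_cases hx : p ∣ orderOf x
        · rw [hχ0, pRegularPart_of_singular p _ hx, map_zero, zero_mul, zero_mul]
        · rw [hχ0, pRegularPart_of_regular p _ hx, mul_comm]
      rw [← Finset.sum_div, h3, ← hd1]
      have hpa : ((p ^ a : ℕ) : ℂ) ≠ 0 := Nat.cast_ne_zero.mpr (pow_ne_zero a hp.ne_zero)
      have h4 : c = (mn : ℂ) / ((p ^ a : ℕ) : ℂ) := by
        rw [eq_div_iff hpa, mul_comm, hm, ← hmn]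
        push_cast
        rfl
      have hdne : (d : ℂ) ≠ 0 := Nat.cast_ne_zero.mpr hdpos.ne'
      have hpne : (p : ℂ) ≠ 0 := Nat.cast_ne_zero.mpr hp.ne_zero
      rw [h4, ← hcard]
      push_cast
      field_simp
    rw [← h2]
    exact h1
  set ν := d.factorization p with hν
  have hpν : p ^ ν ∣ mn := by
    have h1 : p ^ ν ∣ g' * mn := (Nat.ordProj_dvd d p).trans hdvd
    have h2 : Nat.Coprime (p ^ ν) g' := Nat.Coprime.pow_left ν hcop
    exact h2.dvd_of_dvd_mul_left h1
  obtain ⟨M', hM'⟩ := hpν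
  have hM'pos : 0 < M' := by
    rcases Nat.eq_zero_or_pos M' with h | h
    · rw [h, mul_zero] at hM'; omega
    · exact h
  have hrm' : S.card * (p ^ ν * M') ≤ p ^ a := by
    have : ((S.card * mn : ℕ) : ℤ) ≤ ((p ^ a : ℕ) : ℤ) := by
      push_cast
      rw [hmn]
      exact_mod_cast hrm
    rw [← hM']
    exact_mod_cast this
  have hrν : S.card * p ^ ν ≤ p ^ a := by
    calc S.card * p ^ ν = S.card * (p ^ ν * 1) := by ring
      _ ≤ S.card * (p ^ ν * M') := by gcongr; exact hM'pos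
      _ ≤ p ^ a := hrm'
  refine ⟨?_, ?_⟩
  · -- part 1
    rw [Nat.factorization_mul hrpos.ne' hdpos.ne', Finsupp.add_apply]
    have h1 : p ^ (S.card.factorization p) ≤ S.card :=
      Nat.le_of_dvd hrpos (Nat.ordProj_dvd S.card p)
    have h2 : p ^ (S.card.factorization p + ν) ≤ p ^ a := by
      rw [pow_add]
      exact (Nat.mul_le_mul_right _ h1).trans hrν
    exact (Nat.pow_le_pow_iff_right hp.one_lt).1 h2
  · -- part 2
    intro hdiv
    have hdt : p ^ ν * (d / p ^ ν) = d := Nat.ordProj_mul_ordCompl_eq_self d p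
    have hcopt : Nat.Coprime p (d / p ^ ν) := Nat.coprime_ordCompl hp hdpos.ne'
    have h1 : p ^ a ∣ S.card * p ^ ν := by
      have h2 : p ^ a ∣ S.card * p ^ ν * (d / p ^ ν) := by
        rw [mul_assoc, hdt]; exact hdiv
      exact (Nat.Coprime.pow_left a hcopt).dvd_of_dvd_mul_right h2
    have h3 : p ^ a ≤ S.card * p ^ ν :=
      Nat.le_of_dvd (Nat.mul_pos hrpos (pow_pos hp.pos ν)) h1
    have h4 : S.card * p ^ ν = p ^ a := le_antisymm hrν h3
    have hM1 : M' = 1 := by
      have h5 : S.card * p ^ ν * M' ≤ S.card * p ^ ν * 1 := by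
        rw [mul_one, mul_assoc]; exact hrm'.trans h3
      have h6 := Nat.le_of_mul_le_mul_left h5 (Nat.mul_pos hrpos (pow_pos hp.pos ν))
      omega
    have hmn' : mn = p ^ ν := by rw [hM', hM1, mul_one]
    -- `r * c = 1`
    have hrc1 : (S.card : ℝ) * cr = 1 := by
      have h5 : ((p ^ a : ℕ) : ℝ) * ((S.card : ℝ) * cr) = ((p ^ a : ℕ) : ℝ) * 1 := by
        have h6 : (m : ℝ) = ((p ^ ν : ℕ) : ℝ) := by
          rw [← hmn' ]
          exact_mod_cast congrArg (fun z : ℤ => (z : ℝ)) hmn.symm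
        calc ((p ^ a : ℕ) : ℝ) * ((S.card : ℝ) * cr)
            = (S.card : ℝ) * (((p ^ a : ℕ) : ℝ) * cr) := by ring
          _ = (S.card : ℝ) * ((p ^ ν : ℕ) : ℝ) := by rw [hmr, h6]
          _ = ((S.card * p ^ ν : ℕ) : ℝ) := by push_cast; ring
          _ = ((p ^ a : ℕ) : ℝ) * 1 := by rw [h4, mul_one]
      exact mul_left_cancel₀ hpapos.ne' h5
    have hzero : ∀ ψ : IrrCharacter G, ψ ∉ S → classInner χ0 (ψ : G → ℂ) = 0 := by
      have h5 : ∑ ψ ∈ Finset.univ \ S, Complex.normSq (classInner χ0 (ψ : G → ℂ)) = 0 := by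
        have h6 := Finset.sum_sdiff (Finset.subset_univ S)
          (f := fun ψ : IrrCharacter G => Complex.normSq (classInner χ0 (ψ : G → ℂ)))
        rw [hSsum, ← hpars] at h6
        have h7 : (S.card : ℝ) * (cr * cr) = cr := by
          rw [← mul_assoc, hrc1, one_mul]
        linarith
      intro ψ hψ
      have h8 := (Finset.sum_eq_zero_iff_of_nonneg
        (fun ψ _ => Complex.normSq_nonneg _)).1 h5 ψ
        (Finset.mem_sdiff.2 ⟨Finset.mem_univ ψ, hψ⟩)
      exact Complex.normSq_eq_zero.1 h8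
    have hexp : ∀ g : G, χ0 g = c * ∑ ψ ∈ S, (ψ : G → ℂ) g := by
      intro g
      rw [classFunction_expand_sum χ0 hcf0 g, Finset.mul_sum,
        ← Finset.sum_subset (Finset.subset_univ S)
          (fun ψ _ hψ => by rw [hzero ψ hψ, zero_mul])]
      exact Finset.sum_congr rfl fun ψ hψ => by rw [hcS ψ hψ]
    -- sum over a Sylow `p`-subgroup
    obtain ⟨P⟩ : Nonempty (Sylow p G) := inferInstance
    have hPcard : Nat.card P = p ^ a := P.card_eq_multiplicity
    have hsing : ∀ u : P, u ≠ 1 → p ∣ orderOf (u : G) := by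
      intro u hu
      obtain ⟨k, hk⟩ := P.isPGroup' u
      have h1 : orderOf u ∣ p ^ k := orderOf_dvd_of_pow_eq_one hk
      obtain ⟨j, _, hj⟩ := (Nat.dvd_prime_pow hp).1 h1
      rw [Subgroup.orderOf_coe, hj]
      rcases Nat.eq_zero_or_pos j with h0 | h0
      · exfalso
        rw [h0, pow_zero, orderOf_eq_one_iff] at hj
        exact hu hj
      · exact dvd_pow_self p h0.ne'
    have hsum0 : ∑ u : P, χ0 (u : G) = (d : ℂ) := by
      have h1 : ∑ u : P, χ0 (u : G) = χ0 ((1 : P) : G) :=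
        Finset.sum_eq_single (1 : P)
          (fun u _ hu => by rw [hχ0, pRegularPart_of_singular p _ (hsing u hu)])
          (fun h => absurd (Finset.mem_univ _) h)
      rw [h1, hχ0, OneMemClass.coe_one, pRegularPart_of_regular p _ (by
          rw [orderOf_one]; exact hp.one_lt.ne' ∘ Nat.dvd_one.1), hd1]
    obtain ⟨mP, hmP⟩ := exists_sum_subgroup hχc (P : Subgroup G)
    have hsumψ : ∀ ψ ∈ S, ∑ u : P, (ψ : G → ℂ) (u : G) = (Nat.card P : ℂ) * mP := by
      intro ψ hψ
      obtain ⟨σ, _, he⟩ := hS ψ hψ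
      rw [he]
      show ∑ u : P, σ ((χ : G → ℂ) (u : G)) = _
      rw [← map_sum, hmP, map_mul, map_natCast, map_natCast]
    have hfin : (d : ℂ) = ((p ^ a * mP : ℕ) : ℂ) := by
      have h10 : ∑ u : P, χ0 (u : G) = ∑ u : P, c * ∑ ψ ∈ S, (ψ : G → ℂ) (u : G) :=
        Finset.sum_congr rfl (fun u _ => hexp (u : G))
      have h11 : ∑ ψ ∈ S, ∑ u : P, (ψ : G → ℂ) (u : G) = ∑ ψ ∈ S, (Nat.card P : ℂ) * mP :=
        Finset.sum_congr rfl (fun ψ hψ => hsumψ ψ hψ)
      rw [← hsum0, h10, ← Finset.mul_sum, Finset.sum_comm, h11, Finset.sum_const,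
        nsmul_eq_mul, hPcard, hccr, ← mul_assoc]
      have h9 : ((cr : ℝ) : ℂ) * (S.card : ℂ) = 1 := by
        rw [mul_comm]
        exact_mod_cast congrArg (fun z : ℝ => (z : ℂ)) hrc1
      rw [h9, one_mul]
      push_cast
      rfl
    have hfin' : d = p ^ a * mP := by exact_mod_cast hfin
    exact Dvd.intro _ hfin'.symm

end Cfsg.Agent.Lib.Helper75.PConj
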