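import Mathlib
import Cfsg.Prelude.Def_Solvable
import Cfsg.Agent.Lib.Helper75.SelfCentCore

set_option autoImplicit false
set_option linter.unusedSectionVars false
set_option linter.style.haveILetI false
set_option linter.unusedVariables false

namespace Cfsg.Agent.Lib.Helper75.SelfCentDerived

open Subgroup
open scoped Pointwise commutatorElement
open Cfsg.Agent.Lib.Helper75.SelfCent Cfsg.Agent.Lib.Helper75.SelfCentCount
open Cfsg.Agent.Lib.Helper75.SelfCentMain Cfsg.Agent.Lib.Helper75.SelfCentCore

section

variable {G : Type*} [Group G] [Finite G] {p : ℕ} {x : G}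

/-- Case `|N(⟨x⟩)| = p`: the commutator subgroup has order `[G : N(⟨x⟩)]`. -/
theorem card_commutator_of_eq (hp : p.Prime) (hx : orderOf x = p)
    (hC : Subgroup.centralizer ({x} : Set G) = Subgroup.zpowers x)
    (hN : Nat.card (normalizer (zpowers x : Set G)) = p) :
    Nat.card (commutator G) = (normalizer (zpowers x : Set G)).index := by
  have h1 := (commutator_eq_core hp hx hC hN).2
  have h2 := (normalizer (zpowers x : Set G)).card_mul_index
  rw [hN, ← h1, mul_comm] at h2
  exact (Nat.eq_of_mul_eq_mul_right hp.pos h2).symm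

/-- Case `|N(⟨x⟩)| ≠ p` and `G'' ≠ G'`. -/
theorem card_derived_of_ne (hp : p.Prime) (hx : orderOf x = p)
    (hC : Subgroup.centralizer ({x} : Set G) = Subgroup.zpowers x)
    (hN : Nat.card (normalizer (zpowers x : Set G)) ≠ p)
    (hne : (⁅commutator G, commutator G⁆ : Subgroup G) ≠ commutator G) :
    Nat.card (⁅commutator G, commutator G⁆ : Subgroup G) =
        (normalizer (zpowers x : Set G)).index ∧
      Nat.card (commutator G) = p * (normalizer (zpowers x : Set G)).index := by
  have hxD := mem_commutator_of_ne hp hx hC hN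
  haveI := pPrimeCore_normal G p
  have hle := pPrimeCore_le_commutator hp hx hC
  have h2 : ¬ p ∣ Nat.card (⁅commutator G, commutator G⁆ : Subgroup G) := by
    intro h
    exact hne (le_antisymm (Subgroup.commutator_le_left (commutator G) (commutator G))
      (simple_of_dvd hp hx hC hxD h).2)
  obtain ⟨hq, hk⟩ := quotient_of_not_dvd hp hx hC hxD h2
  have hD2 : (⁅commutator G, commutator G⁆ : Subgroup G) = Cfsg.pPrimeCore p G :=
    le_antisymm (le_pPrimeCore hp inferInstance h2) (pPrimeCore_le_commutator2 hp hx hC hxD)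
  have hcardD : Nat.card (commutator G) = p * Nat.card (Cfsg.pPrimeCore p G) := by
    rw [Subgroup.card_eq_card_quotient_mul_card_subgroup
      ((Cfsg.pPrimeCore p G).subgroupOf (commutator G)), hq, card_subgroupOf_core hle]
  have hinf : commutator G ⊓ normalizer (zpowers x : Set G) = zpowers x := by
    apply le_antisymm
    · rintro g ⟨hgD, hgN⟩
      obtain ⟨k, hk'⟩ := hk g hgD
      have h3 : g⁻¹ * x ^ k ∈ Cfsg.pPrimeCore p G ⊓ normalizer (zpowers x : Set G) :=
        Subgroup.mem_inf.2
          ⟨hk', mul_mem (inv_mem hgN) (zpowers_le_normalizer (zpow_mem (mem_zpowers x) k))⟩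
      rw [inf_normalizer_eq_bot hp hx hC _ (pPrimeCore_not_dvd G hp), mem_bot] at h3
      have h4 : g = x ^ k := by
        have := congrArg (g * ·) h3
        simpa using this.symm
      rw [h4]
      exact zpow_mem (mem_zpowers x) k
    · exact le_inf (zpowers_le.2 hxD) zpowers_le_normalizer
  have hsup := normalizer_sup_eq_top hp hx hC (commutator G) hxD
  have h1 : (commutator G).index = (commutator G).relIndex (normalizer (zpowers x : Set G)) := by
    rw [← relIndex_top_right, ← hsup, relIndex_sup_right]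
  have h3 := relIndex_mul_relIndex ⊥ (commutator G ⊓ normalizer (zpowers x : Set G))
    (normalizer (zpowers x : Set G)) bot_le inf_le_right
  rw [relIndex_bot_left, relIndex_bot_left, inf_relIndex_right, ← h1, hinf, card_zpowers_eq hx]
    at h3
  have h4 := (commutator G).card_mul_index
  have h5 := (normalizer (zpowers x : Set G)).card_mul_index
  have h6 : Nat.card (Cfsg.pPrimeCore p G) = (normalizer (zpowers x : Set G)).index := by
    rw [← h4, hcardD, ← h3] at h5
    have h7 : p * (commutator G).index * (normalizer (zpowers x : Set G)).index =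
        p * (commutator G).index * Nat.card (Cfsg.pPrimeCore p G) := by
      rw [h5]; ring
    have hpos : 0 < p * (commutator G).index := by
      rw [h3]; exact Nat.card_pos
    exact (Nat.eq_of_mul_eq_mul_left hpos h7).symm
  rw [hD2, hcardD, h6]
  exact ⟨rfl, rfl⟩

/-- Converse: a normal subgroup of order `[G : N(⟨x⟩)]` forces `p ∤ |G''|`. -/
theorem not_dvd_card_derived (hp : p.Prime) (hx : orderOf x = p)
    (hC : Subgroup.centralizer ({x} : Set G) = Subgroup.zpowers x)
    (S : Subgroup G) [hS : S.Normal] (hS' : ¬ p ∣ Nat.card S)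
    (hcard : Nat.card S = (normalizer (zpowers x : Set G)).index) :
    ¬ p ∣ Nat.card (⁅commutator G, commutator G⁆ : Subgroup G) := by
  have h1 := card_mul_card_normalizer hp hx hC S hS'
  rw [hcard, mul_comm, card_mul_index] at h1
  have htop : S ⊔ normalizer (zpowers x : Set G) = ⊤ := (card_eq_iff_eq_top _).1 h1.symm
  have hπ : ∀ s ∈ S, (QuotientGroup.mk' S) s = 1 := fun s hs => (QuotientGroup.eq_one_iff s).2 hs
  have hD : commutator G ≤ S ⊔ zpowers x := by
    rw [_root_.commutator_def, Subgroup.commutator_le]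
    intro g _ h _
    obtain ⟨s, hs, n, hn, rfl⟩ := mem_sup_of_normal_left.1 (htop ▸ mem_top g)
    obtain ⟨s', hs', m, hm, rfl⟩ := mem_sup_of_normal_left.1 (htop ▸ mem_top h)
    have h2 : (QuotientGroup.mk' S) ⁅s * n, s' * m⁆ = (QuotientGroup.mk' S) ⁅n, m⁆ := by
      rw [map_commutatorElement, map_mul, map_mul, hπ s hs, hπ s' hs', one_mul, one_mul,
        ← map_commutatorElement]
    have h3 : ⁅n, m⁆⁻¹ * ⁅s * n, s' * m⁆ ∈ S := QuotientGroup.eq.1 h2.symm
    have h4 : ⁅s * n, s' * m⁆ = ⁅n, m⁆ * (⁅n, m⁆⁻¹ * ⁅s * n, s' * m⁆) := by group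
    rw [h4]
    have h5 : ⁅n, m⁆ ∈ zpowers x := by
      rw [commutatorElement_def]; exact comm_mem_of_normalizer hC hn hm
    exact mul_mem (le_sup_right (a := S) h5) (le_sup_left (b := zpowers x) h3)
  have hD2 : (⁅commutator G, commutator G⁆ : Subgroup G) ≤ S := by
    rw [Subgroup.commutator_le]
    intro a ha b hb
    obtain ⟨s, hs, y, hy, rfl⟩ := mem_sup_of_normal_left.1 (hD ha)
    obtain ⟨s', hs', y', hy', rfl⟩ := mem_sup_of_normal_left.1 (hD hb)
    have h2 : (QuotientGroup.mk' S) ⁅s * y, s' * y'⁆ = 1 := by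
      rw [map_commutatorElement, map_mul, map_mul, hπ s hs, hπ s' hs', one_mul, one_mul,
        ← map_commutatorElement]
      have : ⁅y, y'⁆ = 1 := by
        rw [commutatorElement_eq_one_iff_mul_comm]
        obtain ⟨i, rfl⟩ := mem_zpowers_iff.1 hy
        obtain ⟨j, rfl⟩ := mem_zpowers_iff.1 hy'
        rw [← zpow_add, ← zpow_add, add_comm]
      rw [this, map_one]
    exact (QuotientGroup.eq_one_iff _).1 h2
  intro h
  exact hS' (h.trans (card_dvd_of_le hD2))

end

end Cfsg.Agent.Lib.Helper75.SelfCentDerived
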