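import Cfsg.Agent.Lib.Helper82.BlockDim
import Cfsg.Agent.Lib.Helper74.IndexPStep
import Cfsg.Agent.Lib.Helper3.Dade

/-!
# Height-zero characters with a stabilizer of index prime to `p`

For a block `b` of a normal subgroup `H` of `G` and a subgroup `T` of `G` stabilizing `b`, some
height-zero character of `b` has a stabilizer in `T` of index prime to `p` (`main`).  The proof
uses the multiplicities `zz` of the trivial character of a Sylow subgroup (`Helper82.BlockDim`),
which are invariant under conjugation (`zz_conjIrr`).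
-/

set_option autoImplicit false
set_option linter.style.haveILetI false
open Cfsg

namespace Cfsg.Agent.Lib.Helper75.StabHt

open Cfsg.Agent.Lib.Helper82.BlockDim Cfsg.Agent.Lib.Helper74.IndexPStep

universe u

/-- The sum of a class function over a Sylow `p`-subgroup does not depend on the subgroup. -/
theorem sum_sylow_eq {H : Type u} [Group H] [Finite H] (p : ℕ) [Fact p.Prime] (P P' : Sylow p H)
    [Fintype (P : Subgroup H)] [Fintype (P' : Subgroup H)]
    (ψ : H → ℂ) (hψ : IsClassFunction H ψ) :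
    ∑ w : (P : Subgroup H), ψ (w : H) = ∑ w : (P' : Subgroup H), ψ (w : H) := by
  obtain ⟨h, hh⟩ := MulAction.exists_smul_eq H P P'
  subst hh
  refine Fintype.sum_equiv (Sylow.equivSMul P h).toEquiv _ _ ?_
  intro w
  have h1 : ((Sylow.equivSMul P h w : (h • P : Sylow p H)) : H) = h * w * h⁻¹ := rfl
  show ψ (w : H) = ψ ((Sylow.equivSMul P h w : (h • P : Sylow p H)) : H)
  rw [h1]
  exact (hψ _ _).symm

/-- The multiplicity of the trivial character of a Sylow subgroup of a normal subgroup is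
invariant under conjugation in the ambient group. -/
theorem zz_conjIrr {G : Type u} [Group G] (p : ℕ) [Fact p.Prime] (H : Subgroup G)
    [H.Normal] [Fintype H] (P : Sylow p H) [Fintype (P : Subgroup H)] (g : G)
    (ψ : IrrCharacter H) : zz p P (conjIrr H g ψ) = zz p P ψ := by
  have hpp : p.Prime := Fact.out
  have h1 := zz_spec p P (conjIrr H g ψ)
  have h2 := zz_spec p P ψ
  have h3 : ∑ w : (P : Subgroup H), ((conjIrr H g ψ : IrrCharacter H) : H → ℂ) (w : H)
      = ∑ w : (P : Subgroup H), (ψ : H → ℂ) (w : H) := by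
    obtain ⟨φ, hφ⟩ : ∃ φ : MulAut H, φ = MulAut.conjNormal g⁻¹ := ⟨_, rfl⟩
    letI : Fintype ((φ • P : Sylow p H) : Subgroup H) := Fintype.ofFinite _
    rw [sum_sylow_eq p P (φ • P) (ψ : H → ℂ) (Cfsg.Agent.Lib.CT.Orth.irr_isClassFunction ψ)]
    refine Fintype.sum_equiv (Subgroup.equivSMul φ (P : Subgroup H)).toEquiv _ _ ?_
    intro w
    rw [conjIrr_apply, ← hφ]
    rfl
  rw [h3, h2] at h1
  have hne : ((p ^ (Nat.card H).factorization p : ℕ) : ℂ) ≠ 0 :=
    Nat.cast_ne_zero.2 (pow_ne_zero _ hpp.ne_zero)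
  exact_mod_cast (mul_left_cancel₀ hne h1).symm

/-- A block `b` of a normal subgroup `H`, stabilized by the subgroup `T` of the ambient group,
contains a height-zero character whose stabilizer in `T` has index prime to `p`. -/
theorem main {G : Type u} [Group G] [Finite G] (p : ℕ) [Fact p.Prime] (M : Ideal AlgInt)
    (hM : IsPModular p M) (H : Subgroup G) [H.Normal] (b : Set (IrrCharacter H))
    (hb : IsPBlock M b) (T : Subgroup G) (hT : ∀ g ∈ T, ∀ θ ∈ b, conjIrr H g θ ∈ b) :
    ∃ θ ∈ b, blockHeight p b (θ : H → ℂ) = 0 ∧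
      ¬ p ∣ (((MulAction.stabilizer (Equiv.Perm (IrrCharacter H)) θ).comap (conjIrr H))
        ⊓ T).relIndex T := by
  classical
  letI : Fintype G := Fintype.ofFinite G
  letI : Fintype H := Fintype.ofFinite H
  haveI : Finite (IrrCharacter H) := Cfsg.Agent.Lib.CT.Wedderburn.finite_irrCharacter H
  letI : Fintype (IrrCharacter H) := Fintype.ofFinite _
  have hpp : p.Prime := Fact.out
  have hMp : M.IsPrime := Cfsg.Agent.Lib.Helper77.LocalRing.isPrime_of_isPModular hM
  obtain ⟨P⟩ : Nonempty (Sylow p H) := inferInstance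
  obtain ⟨Q⟩ : Nonempty (Sylow p T) := inferInstance
  -- the least exponent of `p` in a degree of `b`
  obtain ⟨S0, hS0⟩ : ∃ S0 : Set ℕ, S0
      = (fun χ : IrrCharacter H => (charDegree (χ : H → ℂ)).factorization p) '' b := ⟨_, rfl⟩
  have hne : S0.Nonempty := by
    rw [hS0]
    exact (Cfsg.Agent.Lib.CT.DefectZeroBlock.isPBlock_nonempty hMp hb).image _
  have hmem0 : sInf S0 ∈ S0 := Nat.sInf_mem hne
  rw [hS0] at hmem0
  obtain ⟨χ₁, hχ₁, he⟩ := hmem0
  rw [← hS0] at he
  beta_reduce at he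
  obtain ⟨w, hwdef⟩ : ∃ w : IrrCharacter H → ℕ, w = fun ψ : IrrCharacter H => charDegree (ψ : H → ℂ)
      / p ^ (charDegree (χ₁ : H → ℂ)).factorization p := ⟨_, rfl⟩
  have hw : ∀ ψ ∈ b, charDegree (ψ : H → ℂ)
      = p ^ (charDegree (χ₁ : H → ℂ)).factorization p * w ψ := by
    intro ψ hψ
    rw [hwdef]
    refine (Nat.mul_div_cancel' ?_).symm
    have h1 : sInf S0 ≤ (charDegree (ψ : H → ℂ)).factorization p := by
      apply Nat.sInf_le
      rw [hS0]
      exact ⟨ψ, hψ, rfl⟩
    rw [he]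
    exact (Nat.Prime.pow_dvd_iff_le_factorization hpp
      (Cfsg.Agent.Lib.Helper80.Integrality.charDegree_pos ψ).ne').2 h1
  have hnd := not_dvd_sum_zz p P hM b hb χ₁ hχ₁ w hw
  -- the action of the Sylow subgroup `Q` of `T`
  letI act : MulAction (Q : Subgroup T) (IrrCharacter H) :=
    MulAction.compHom _ ((conjIrr H).comp (T.subtype.comp (Q : Subgroup T).subtype))
  have hsmul : ∀ (q : (Q : Subgroup T)) (ψ : IrrCharacter H),
      q • ψ = conjIrr H ((q : T) : G) ψ := fun _ _ => rfl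
  have hmem : ∀ g : G, g ∈ T → ∀ ψ : IrrCharacter H, conjIrr H g ψ ∈ b ↔ ψ ∈ b := by
    intro g hg ψ
    constructor
    · intro h
      have h1 := hT g⁻¹ (T.inv_mem hg) _ h
      rwa [map_inv, Equiv.Perm.inv_def, Equiv.symm_apply_apply] at h1
    · exact hT g hg ψ
  obtain ⟨f, hfdef⟩ : ∃ f : IrrCharacter H → ℤ,
      f = fun ψ => if ψ ∈ b then ((zz p P ψ * w ψ : ℕ) : ℤ) else 0 := ⟨_, rfl⟩
  have hf : ∀ (q : (Q : Subgroup T)) (ψ : IrrCharacter H), f (q • ψ) = f ψ := by
    intro q ψ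
    rw [hsmul, hfdef]
    beta_reduce
    by_cases hψ : ψ ∈ b
    · rw [if_pos hψ, if_pos ((hmem _ (q : T).2 ψ).2 hψ), zz_conjIrr, hwdef]
      beta_reduce
      rw [charDegree_conjIrr]
    · rw [if_neg hψ, if_neg (fun h => hψ ((hmem _ (q : T).2 ψ).1 h))]
  have horb : ∀ ψ : IrrCharacter H, (∀ q : (Q : Subgroup T), q • ψ = ψ)
      ∨ p ∣ (MulAction.orbit (Q : Subgroup T) ψ).ncard := by
    intro ψ
    obtain ⟨n, hn⟩ := IsPGroup.card_orbit Q.isPGroup' ψ
    rcases Nat.eq_zero_or_pos n with hn0 | hn0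
    · left
      intro q
      rw [hn0, pow_zero, Nat.card_coe_set_eq, Set.ncard_eq_one] at hn
      obtain ⟨a, ha⟩ := hn
      have h1 : q • ψ ∈ MulAction.orbit (Q : Subgroup T) ψ := MulAction.mem_orbit ψ q
      have h2 : ψ ∈ MulAction.orbit (Q : Subgroup T) ψ := MulAction.mem_orbit_self ψ
      rw [ha, Set.mem_singleton_iff] at h1 h2
      rw [h1, h2]
    · right
      rw [← Nat.card_coe_set_eq, hn]
      exact dvd_pow_self p hn0.ne'
  have hsum : ¬ (p : ℤ) ∣ ∑ ψ, f ψ := by
    have h1 : ∑ ψ, f ψ = ((∑ ψ ∈ Finset.univ.filter (· ∈ b), zz p P ψ * w ψ : ℕ) : ℤ) := by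
      rw [Nat.cast_sum, Finset.sum_filter, hfdef]
    rw [h1]
    exact_mod_cast hnd
  obtain ⟨θ, hfix, hθ⟩ := Cfsg.Agent.Lib.Helper3.Dade.exists_fixed_not_dvd f hf horb hsum
  have hθb : θ ∈ b := by
    by_contra h
    apply hθ
    rw [hfdef]
    beta_reduce
    rw [if_neg h]
    exact dvd_zero _
  have hθw : ¬ p ∣ w θ := by
    intro h
    apply hθ
    rw [hfdef]
    beta_reduce
    rw [if_pos hθb]
    exact_mod_cast (Dvd.dvd.mul_left h (zz p P θ))
  refine ⟨θ, hθb, ?_, ?_⟩
  · unfold blockHeight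
    rw [← hS0, ← he]
    have h1 := hw θ hθb
    have hw0 : w θ ≠ 0 := by
      intro h0
      rw [h0, mul_zero] at h1
      exact (Cfsg.Agent.Lib.Helper80.Integrality.charDegree_pos θ).ne' h1
    have h2 : (charDegree (θ : H → ℂ)).factorization p
        = (charDegree (χ₁ : H → ℂ)).factorization p := by
      conv_lhs => rw [h1]
      rw [Nat.factorization_mul (pow_ne_zero _ hpp.ne_zero) hw0, Nat.factorization_pow]
      simp only [Finsupp.coe_add, Finsupp.coe_smul, Pi.add_apply, Pi.smul_apply, smul_eq_mul]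
      rw [hpp.factorization_self, Nat.factorization_eq_zero_of_not_dvd hθw]
      ring
    rw [h2, Nat.sub_self]
  · obtain ⟨St, hSt⟩ : ∃ St : Subgroup G, St
        = ((MulAction.stabilizer (Equiv.Perm (IrrCharacter H)) θ).comap (conjIrr H)) ⊓ T :=
      ⟨_, rfl⟩
    rw [← hSt]
    have hQle : (Q : Subgroup T) ≤ St.subgroupOf T := by
      intro q hq
      rw [Subgroup.mem_subgroupOf, hSt]
      refine ⟨?_, q.2⟩
      show conjIrr H (q : G) θ = θ
      exact hfix ⟨q, hq⟩
    have h1 := Subgroup.index_dvd_of_le hQle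
    intro hdvd
    exact Q.not_dvd_index (dvd_trans hdvd h1)

end Cfsg.Agent.Lib.Helper75.StabHt
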