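import Mathlib
import Cfsg.Agent.Lib.Helper74.WinStmt

/-!
# S4467 piece MINU (second seat, helper75)

A minimal non-central normal subgroup `U` of a solvable group in which all abelian normal subgroups
are central: `U` is a `q`-group with central commutators whose centre is central in `G`.
-/

set_option autoImplicit false

namespace Cfsg.Agent.Lib.Helper75.WinMINU

open Cfsg.Agent.Lib.Helper74.WinStmt

universe u

theorem main : MinU.{u} := by
  intro G _ _ hsolv hab hnab
  classical
  have : Group.IsSolvable G := hsolv
  -- a normal non-central subgroup of minimal order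
  have hex : ∃ n : ℕ, ∃ U : Subgroup G, U.Normal ∧ ¬ U ≤ Subgroup.center G ∧ Nat.card ↥U = n := by
    refine ⟨Nat.card ↥(⊤ : Subgroup G), ⊤, inferInstance, ?_, rfl⟩
    intro h
    obtain ⟨a, b, hab'⟩ := hnab
    have ha : a ∈ Subgroup.center G := h (Subgroup.mem_top a)
    exact hab' ((Subgroup.mem_center_iff.1 ha b).symm)
  obtain ⟨U, hUn, hUc, hUcard⟩ := Nat.find_spec hex
  have hmin : ∀ N : Subgroup G, N.Normal → N ≤ U → N ≠ U → N ≤ Subgroup.center G := by
    intro N hN hNU hne
    by_contra hNc
    have h1 : Nat.find hex ≤ Nat.card ↥N := Nat.find_min' hex ⟨N, hN, hNc, rfl⟩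
    rw [← hUcard] at h1
    exact hne (Subgroup.eq_of_le_of_card_ge hNU h1)
  have := hUn
  have hUbot : U ≠ ⊥ := by
    intro h
    apply hUc
    rw [h]
    exact bot_le
  -- the commutator subgroup of `U` is central
  have hcomm : ⁅U, U⁆ ≤ Subgroup.center G := by
    have hlt : ⁅U, U⁆ < U := Group.IsSolvable.commutator_lt_of_ne_bot hUbot
    exact hmin ⁅U, U⁆ inferInstance hlt.le hlt.ne
  -- `U` is nilpotent
  have hnil : Group.IsNilpotent ↥U := by
    apply Subgroup.isNilpotent_of_lowerCentralSeries_eq_bot (S := U) (n := 2)
    apply Subgroup.lowerCentralSeries_succ_eq_bot U (n := 1)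
    exact hcomm
  -- `U` is a `q`-group
  have hq : ∃ q : ℕ, q.Prime ∧ IsPGroup q ↥U := by
    by_contra hno
    push Not at hno
    apply hUc
    have hidx : ((Subgroup.center G).subgroupOf U).index = 1 := by
      by_contra hne
      obtain ⟨r, hr, hrd⟩ := Nat.exists_prime_and_dvd hne
      have : Fact r.Prime := ⟨hr⟩
      let S : Sylow r ↥U := default
      have hSn : (S : Subgroup ↥U).Normal := inferInstance
      have hSc : (S : Subgroup ↥U).Characteristic := Sylow.characteristic_of_normal S hSn
      have hNn : ((S : Subgroup ↥U).map U.subtype).Normal := inferInstance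
      have hNU : (S : Subgroup ↥U).map U.subtype ≤ U := Subgroup.map_subtype_le _
      have hNne : (S : Subgroup ↥U).map U.subtype ≠ U := by
        intro h
        apply hno r hr
        have hS : (S : Subgroup ↥U) = ⊤ := by
          rw [eq_top_iff]
          intro x _
          have hx : (x : G) ∈ (S : Subgroup ↥U).map U.subtype := by
            rw [h]; exact x.2
          obtain ⟨y, hy, hyx⟩ := hx
          have : y = x := Subtype.ext hyx
          rwa [← this]
        have hp : IsPGroup r ↥(S : Subgroup ↥U) := S.isPGroup'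
        intro g
        have hg : g ∈ (S : Subgroup ↥U) := by rw [hS]; trivial
        obtain ⟨k, hk⟩ := hp ⟨g, hg⟩
        refine ⟨k, ?_⟩
        have := congrArg Subtype.val hk
        simpa using this
      have hcen := hmin _ hNn hNU hNne
      have hle : (S : Subgroup ↥U) ≤ (Subgroup.center G).subgroupOf U := by
        intro x hx
        rw [Subgroup.mem_subgroupOf]
        exact hcen ⟨x, hx, rfl⟩
      have hdvd := Subgroup.index_dvd_of_le hle
      exact S.not_dvd_index (dvd_trans hrd hdvd)
    rw [Subgroup.index_eq_one, Subgroup.subgroupOf_eq_top] at hidx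
    exact hidx
  obtain ⟨q, hqp, hqU⟩ := hq
  refine ⟨U, q, hqp, hUn, hqU, hUc, ?_, ?_⟩
  · intro a ha b hb
    have h1 := Subgroup.commutator_mem_commutator ha hb
    have h2 := hcomm h1
    rwa [commutatorElement_def] at h2
  · intro z hz hzU
    have hA : (U ⊓ Subgroup.centralizer (U : Set G)).Normal := inferInstance
    have hAab : ∀ a ∈ U ⊓ Subgroup.centralizer (U : Set G),
        ∀ b ∈ U ⊓ Subgroup.centralizer (U : Set G), a * b = b * a := by
      intro a ha b hb
      exact (Subgroup.mem_centralizer_iff.1 hb.2) a ha.1
    apply hab _ hA hAab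
    refine ⟨hz, ?_⟩
    show z ∈ Subgroup.centralizer (U : Set G)
    rw [Subgroup.mem_centralizer_iff]
    intro h hh
    exact (hzU h hh).symm

end Cfsg.Agent.Lib.Helper75.WinMINU
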